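import Cfsg.Agent.Lib.HJOrder.A5

set_option autoImplicit false

namespace Cfsg.Agent.Lib.HJT.A5x

open Cfsg.Agent.Lib.HJOrder.A5

theorem a5_conj : ∀ k k' : AFive, k ^ 2 = 1 → k ≠ 1 → k' ^ 2 = 1 → k' ≠ 1 → ∃ g : AFive, g * k * g⁻¹ = k' := by
  decide +kernel

theorem a5_pair' : ∀ k : AFive, k ^ 2 = 1 → k ≠ 1 → ∃ g : AFive, k * (g * k * g⁻¹) ≠ 1 ∧ (k * (g * k * g⁻¹)) ^ 5 = 1 := by
  decide +kernel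

theorem a5_cent' : ∀ k b : AFive, (k ^ 2 = 1 ∧ k ≠ 1 ∧ b * k = k * b) → b ^ 2 = 1 := by
  decide +kernel

theorem a5_cent (k b : AFive) (h1 : k ^ 2 = 1) (h2 : k ≠ 1) (h3 : b * k = k * b) : b ^ 2 = 1 :=
  a5_cent' k b ⟨h1, h2, h3⟩

theorem a5_five_cent' : ∀ σ k : AFive, (σ ≠ 1 ∧ σ ^ 5 = 1 ∧ k ^ 2 = 1 ∧ k * σ = σ * k) → k = 1 := by
  decide +kernel

theorem a5_five_cent (σ k : AFive) (h1 : σ ≠ 1) (h2 : σ ^ 5 = 1) (h3 : k ^ 2 = 1) (h4 : k * σ = σ * k) : k = 1 :=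
  a5_five_cent' σ k ⟨h1, h2, h3, h4⟩

end Cfsg.Agent.Lib.HJT.A5x
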