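import Cfsg.Agent.Lib.HJT.Geo
import Cfsg.Agent.Lib.HJT.A5x
import Cfsg.Agent.Lib.HJOrder.Zside

/-!
# The centralizer of `z`
-/

set_option autoImplicit false
set_option linter.unusedSectionVars false
set_option linter.unusedVariables false
set_option linter.style.longLine false

namespace Cfsg.Agent.Lib.HJT.Frame

open Subgroup Cfsg.Agent.Lib.PGroups.ExtraGauss Cfsg.Agent.Lib.HJOrder.Basic
  Cfsg.Agent.Lib.HJOrder.Tau Cfsg.Agent.Lib.HJOrder.A5 Cfsg.Agent.Lib.HJOrder.Local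
  Cfsg.Agent.Lib.Involutions.Thompson Cfsg.Agent.Lib.HJT.A5x Cfsg.Agent.Lib.HJT.Geo
open scoped commutatorElement

section P

variable {P : Type*} [Group P] [Finite P] {z : P}

/-- The index is four as soon as the two subgroups meet in the centre. -/
theorem index_four_of_inf (hS : QSetting P z) (hc : Nat.card P = 32)
    (τ τ' : P →* P) (hτ : ∀ x, τ (τ x) = x) (hτ' : ∀ x, τ' (τ' x) = x) (hτz : τ z = z) (hτ'z : τ' z = z)
    (hsub : ∀ x ∈ FF hS τ hτz ⊓ FF hS τ' hτ'z, x = 1 ∨ x = z) :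
    (FF hS τ hτz).index = 4 := by
  classical
  have hcard : Nat.card (FF hS τ hτz ⊓ FF hS τ' hτ'z : Subgroup P) ≤ 2 := by
    have h3 : (((FF hS τ hτz ⊓ FF hS τ' hτ'z : Subgroup P) : Set P)).ncard ≤ (({1, z} : Finset P) : Set P).ncard := by
      apply Set.ncard_le_ncard _ (Set.toFinite _)
      intro x hx
      rcases hsub x hx with h | h <;> simp [h]
    rw [Set.ncard_coe_finset, ← Nat.card_coe_set_eq] at h3
    exact h3.trans Finset.card_le_two
  have hm := Subgroup.card_mul_index (FF hS τ hτz ⊓ FF hS τ' hτ'z)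
  rw [hc] at hm
  have hinf : (FF hS τ hτz ⊓ FF hS τ' hτ'z).index ≤ (FF hS τ hτz).index * (FF hS τ' hτ'z).index := Subgroup.index_inf_le
  have h1 := (index_le_four hS hc τ hτ hτz).1
  have h2 := (index_le_four hS hc τ' hτ' hτ'z).1
  have h16 : 16 ≤ (FF hS τ hτz ⊓ FF hS τ' hτ'z).index := by
    by_contra hlt
    push Not at hlt
    nlinarith
  have h3 : 16 ≤ (FF hS τ hτz).index * (FF hS τ' hτ'z).index := h16.trans hinf
  by_contra h4
  have h5' : (FF hS τ hτz).index ≤ 3 := by omega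
  nlinarith

/-- Each element of `F` has the form `x⁻¹ τ x`. -/
theorem all_form (hS : QSetting P z) (hcc : Nat.card (center P) = 2) (hc : Nat.card P = 32) (τ : P →* P)
    (hτ : ∀ x, τ (τ x) = x) (hτz : τ z = z) (hn : NN P = 12) (hi : (FF hS τ hτz).index = 4)
    {y : P} (hy : y ∈ FF hS τ hτz) : ∃ x : P, y = x⁻¹ * τ x := by
  obtain ⟨x, h | h⟩ := (index_le_four hS hc τ hτ hτz).2 hi y hy
  · exact ⟨x, h⟩
  · obtain ⟨y₀, hy₀, hy₀2⟩ := exists_sq_z hS hcc hc τ hτ hτz hn hi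
    have hz := z_mem_FF hS τ hτz
    have hu : x⁻¹ * τ x ∈ FF hS τ hτz := by
      have : x⁻¹ * τ x = y * z⁻¹ := by rw [h]; group
      rw [this]
      exact mul_mem hy (inv_mem hz)
    have e1 := tau_inv hS hc τ hτ hτz hi hy₀
    have e2 := F_comm hS hc τ hτ hτz hi hu hy₀
    refine ⟨x * y₀, ?_⟩
    rw [map_mul, e1, h]
    have hzi : z = y₀ ^ 2 := hy₀2.symm
    have e3 : (x * y₀)⁻¹ * (τ x * y₀⁻¹) = y₀⁻¹ * (x⁻¹ * τ x) * y₀⁻¹ := by group
    rw [e3]
    have e4 : y₀⁻¹ * (x⁻¹ * τ x) = (x⁻¹ * τ x) * y₀⁻¹ := by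
      have : Commute (x⁻¹ * τ x) y₀ := e2
      exact (this.inv_right).eq.symm
    have hzz := sqz hS
    have hi2 : z⁻¹ = z := inv_eq_of_mul_eq_one_right hzz
    have e5 : y₀⁻¹ * y₀⁻¹ = z := by
      rw [← hi2, hzi, sq]
      group
    rw [e4, mul_assoc (x⁻¹ * τ x), e5]

end P

variable {G : Type*} [Group G] [Finite G]

/-- The centralizer of `z`. -/
abbrev CC (z : G) : Subgroup G := centralizer ({z} : Set G)

theorem memC {z g : G} : g ∈ CC z ↔ g * z = z * g := by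
  rw [Subgroup.mem_centralizer_singleton_iff]

theorem conj_mul_z {g x z : G} (hgz : g * z = z * g) : g * (x * z) * g⁻¹ = (g * x * g⁻¹) * z := by
  have h1 : g * z * g⁻¹ = z := conj_eq_of_cmt hgz
  calc g * (x * z) * g⁻¹ = (g * x * g⁻¹) * (g * z * g⁻¹) := by group
    _ = _ := by rw [h1]

theorem card_add_three {α : Type*} [Finite α] (p : α → Prop) {a b c : α} (ha : ¬ p a) (hb : ¬ p b) (hc : ¬ p c)
    (hab : a ≠ b) (hac : a ≠ c) (hbc : b ≠ c) : Nat.card {x // p x} + 3 ≤ Nat.card α := by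
  classical
  cases nonempty_fintype α
  rw [Nat.card_eq_fintype_card, Nat.card_eq_fintype_card,
    Fintype.card_of_subtype (Finset.univ.filter p) (by simp)]
  have h1 : Disjoint (Finset.univ.filter p) ({a, b, c} : Finset α) := by
    rw [Finset.disjoint_left]
    intro x hx hx'
    simp only [Finset.mem_filter, Finset.mem_univ, true_and] at hx
    simp only [Finset.mem_insert, Finset.mem_singleton] at hx'
    rcases hx' with rfl | rfl | rfl
    · exact ha hx
    · exact hb hx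
    · exact hc hx
  have h2 := Finset.card_le_univ (Finset.univ.filter p ∪ ({a, b, c} : Finset α))
  rw [Finset.card_union_of_disjoint h1] at h2
  have h3 : ({a, b, c} : Finset α).card = 3 := Finset.card_eq_three.2 ⟨a, b, c, hab, hac, hbc, rfl⟩
  omega

/-- The group `C_Q(v)`. -/
def VV (Q : Subgroup G) (v : G) : Subgroup G := Q ⊓ centralizer ({v} : Set G)

theorem mem_VV {Q : Subgroup G} {v x : G} : x ∈ VV Q v ↔ x ∈ Q ∧ Commute x v := by
  unfold VV
  rw [Subgroup.mem_inf, Subgroup.mem_centralizer_singleton_iff]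
  exact Iff.rfl

/-- The framework. -/
structure HS (z : G) (Q : Subgroup G) (π : ↥(CC z) →* AFive) : Prop where
  q : QData Q z
  n : ∀ g : G, g * z = z * g → ∀ x ∈ Q, g * x * g⁻¹ ∈ Q
  surj : Function.Surjective π
  ker : ∀ c : ↥(CC z), π c = 1 ↔ (c : G) ∈ Q

namespace HS

variable {z : G} {Q : Subgroup G} {π : ↥(CC z) →* AFive} (h : HS z Q π)
include h

theorem cz (c : ↥(CC z)) : (c : G) * z = z * c := memC.1 c.2

theorem card_C : Nat.card (CC z) = 1920 := by
  have h1 : Nat.card π.ker = 32 := by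
    rw [← h.q.card]
    apply Nat.card_congr
    refine ⟨fun c => ⟨c.1.1, (h.ker c.1).1 c.2⟩, fun x => ⟨⟨x.1, memC.2 (h.q.central x.1 x.2)⟩, (h.ker _).2 x.2⟩,
      fun _ => rfl, fun _ => rfl⟩
  have h2 := Subgroup.card_mul_index π.ker
  rw [Subgroup.index_ker, h1, MonoidHom.range_eq_top.mpr h.surj] at h2
  rw [Subgroup.card_top, a5_card] at h2
  omega

/-- The action on `Q` of an element of `C`. -/
theorem five_elt {c : ↥(CC z)} (h5 : (π c) ^ 5 = 1) (h1 : π c ≠ 1) :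
    (c ^ 384) ^ 5 = 1 ∧ (∀ x ∈ Q, ((c ^ 384 : ↥(CC z)) : G) * x = x * ((c ^ 384 : ↥(CC z)) : G) → x = 1 ∨ x = z) ∧
      NN ↥Q = 12 := by
  set f := c ^ 384 with hf
  have hf5 : f ^ 5 = 1 := by
    rw [hf, ← pow_mul]
    have : 384 * 5 = Nat.card (CC z) := by rw [h.card_C]
    rw [this, pow_card_eq_one']
  have hπf : π f ≠ 1 := by
    intro e
    rw [hf, map_pow] at e
    apply h1
    have e1 : (π c) ^ 384 = (π c ^ 5) ^ 76 * (π c) ^ 4 := by
      rw [← pow_mul, ← pow_add]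
    rw [e1, h5, one_pow, one_mul] at e
    calc π c = (π c) ^ 5 * ((π c) ^ 4)⁻¹ := by group
      _ = 1 := by rw [h5, e]; simp
  have hfz := h.cz f
  have hv := h.n (f : G) hfz
  have hσ5 : ∀ x : ↥Q, tauG Q f hv (tauG Q f hv (tauG Q f hv (tauG Q f hv (tauG Q f hv x)))) = x := by
    intro x
    apply Subtype.ext
    simp only [tauG_coe]
    have e5 : ((f : G)) ^ 5 = f * f * f * f * f := by simp only [pow_succ, pow_zero, one_mul]
    have e6 : (f : G) ^ 5 = 1 := by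
      have := congrArg Subtype.val hf5
      simpa using this
    calc _ = ((f : G) * f * f * f * f) * (x : G) * ((f : G) * f * f * f * f)⁻¹ := by group
      _ = x := by rw [← e5, e6]; simp
  have hne : ∃ x : ↥Q, tauG Q f hv x ≠ x := by
    by_contra hall
    push Not at hall
    apply hπf
    rw [h.ker]
    have hcom : ∀ x ∈ Q, (f : G) * x = x * f := by
      intro x hx
      have := congrArg Subtype.val (hall ⟨x, hx⟩)
      rw [tauG_coe] at this
      exact cmt_of_conj_eq this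
    rcases h.q.cent _ hcom with e | e
    · rw [e]; exact one_mem _
    · rw [e]; exact h.q.z_mem
  obtain ⟨hfix, hnn⟩ := order_five h.q.setting h.q.center_card h.q.card (tauG Q f hv) hσ5 hne (tauG_z h.q hv hfz)
  refine ⟨hf5, ?_, hnn⟩
  intro x hx hcm
  have e1 : tauG Q f hv ⟨x, hx⟩ = ⟨x, hx⟩ := by
    apply Subtype.ext
    rw [tauG_coe]
    exact conj_eq_of_cmt hcm
  rcases hfix _ e1 with e | e
  · left; exact congrArg Subtype.val e
  · right; exact congrArg Subtype.val e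

theorem nn : NN ↥Q = 12 := by
  obtain ⟨σ, hσ1, hσ5⟩ := a5_five
  obtain ⟨c, rfl⟩ := h.surj σ
  exact (h.five_elt hσ5 hσ1).2.2

theorem pi_pow_ne {c : ↥(CC z)} (h5 : (π c) ^ 5 = 1) (h1 : π c ≠ 1) : π (c ^ 384) ≠ 1 := by
  intro e
  rw [map_pow] at e
  apply h1
  have e1 : (π c) ^ 384 = (π c ^ 5) ^ 76 * (π c) ^ 4 := by
    rw [← pow_mul, ← pow_add]
  rw [e1, h5, one_pow, one_mul] at e
  calc π c = (π c) ^ 5 * ((π c) ^ 4)⁻¹ := by group
    _ = 1 := by rw [h5, e]; simp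

theorem pi_ne_one {v : ↥(CC z)} (hv : (v : G) ∉ Q) : π v ≠ 1 := fun e => hv ((h.ker v).1 e)

theorem index_v' {v : ↥(CC z)} (hv2 : v ^ 2 = 1) (hvQ : (v : G) ∉ Q) :
    (FF h.q.setting (tauG Q (v : G) (h.n v (h.cz v))) (tauG_z h.q _ (h.cz v))).index = 4 := by
  have hk2 : (π v) ^ 2 = 1 := by rw [← map_pow, hv2, map_one]
  obtain ⟨g, hg1, hg5⟩ := a5_pair' (π v) hk2 (h.pi_ne_one hvQ)
  obtain ⟨c, rfl⟩ := h.surj g
  set v' := c * v * c⁻¹ with hv'
  have hπv' : π v' = π c * π v * (π c)⁻¹ := by rw [hv', map_mul, map_mul, map_inv]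
  rw [← hπv'] at hg1 hg5
  have hv'2 : v' ^ 2 = 1 := by
    rw [hv', conj_pow, hv2]; simp
  set w := v * v' with hw
  have hπw : π w = π v * π v' := map_mul _ _ _
  rw [← hπw] at hg1 hg5
  obtain ⟨-, hfix, -⟩ := h.five_elt hg5 hg1
  have hv2G : (v : G) ^ 2 = 1 := by
    have := congrArg Subtype.val hv2
    simpa using this
  have hv'2G : (v' : G) ^ 2 = 1 := by
    have := congrArg Subtype.val hv'2
    simpa using this
  refine index_four_of_inf h.q.setting h.q.card _ (tauG Q (v' : G) (h.n v' (h.cz v')))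
    (tauG_invol _ hv2G) (tauG_invol _ hv'2G) _ (tauG_z h.q _ (h.cz v')) ?_
  rintro ⟨x, hxQ⟩ hxm
  obtain ⟨hx1, hx2⟩ := Subgroup.mem_inf.1 hxm
  have hx1 := (mem_FF_tau h.q _ (h.cz v) _).1 hx1
  have hx2 := (mem_FF_tau h.q _ (h.cz v') _).1 hx2
  simp only at hx1 hx2
  have hzz : z * z = 1 := by rw [← sq, h.q.z_sq]
  have hxz := h.q.central x hxQ
  -- the action of `w`
  have hW : (w : G) * x * (w : G)⁻¹ = x ∨ (w : G) * x * (w : G)⁻¹ = x * z := by
    have e : (w : G) * x * (w : G)⁻¹ = (v : G) * ((v' : G) * x * (v' : G)⁻¹) * (v : G)⁻¹ := by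
      rw [hw]; push_cast; group
    rw [e]
    rcases hx2 with e2 | e2 <;> rw [e2]
    · exact hx1
    · rw [conj_mul_z (h.cz v)]
      rcases hx1 with e4 | e4 <;> rw [e4]
      · right; rfl
      · left; rw [mul_assoc, hzz, mul_one]
  have hWW : Commute ((w : G) * w) x := by
    apply cmt_of_conj_eq
    have hwz := h.cz w
    have e : ((w : G) * w) * x * ((w : G) * w)⁻¹ = (w : G) * ((w : G) * x * (w : G)⁻¹) * (w : G)⁻¹ := by group
    rw [e]
    rcases hW with e2 | e2 <;> rw [e2]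
    · exact e2
    · rw [conj_mul_z hwz, e2, mul_assoc, hzz, mul_one]
  have hf : Commute ((w ^ 384 : ↥(CC z)) : G) x := by
    have e : ((w ^ 384 : ↥(CC z)) : G) = ((w : G) * w) ^ 192 := by
      push_cast
      rw [← sq, ← pow_mul]
    rw [e]
    exact hWW.pow_left 192
  rcases hfix x hxQ hf with e | e
  · left; exact Subtype.ext e
  · right; exact Subtype.ext e

/-! ### Involutions outside `Q` -/

theorem index_v {v : G} (hvz : v * z = z * v) (hv2 : v ^ 2 = 1) (hvQ : v ∉ Q) :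
    (FF h.q.setting (tauG Q v (h.n v hvz)) (tauG_z h.q _ hvz)).index = 4 :=
  h.index_v' (v := ⟨v, memC.2 hvz⟩) (Subtype.ext hv2) hvQ

/-- Elements moved to `x` or `x z` are inverted. -/
theorem inverts {v x : G} (hvz : v * z = z * v) (hv2 : v ^ 2 = 1) (hvQ : v ∉ Q) (hx : x ∈ Q)
    (hF : v * x * v⁻¹ = x ∨ v * x * v⁻¹ = x * z) : v * x * v⁻¹ = x⁻¹ := by
  have hv := h.n v hvz
  have h1 := tau_inv h.q.setting h.q.card (tauG Q v hv) (tauG_invol hv hv2) (tauG_z h.q hv hvz)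
    (h.index_v hvz hv2 hvQ) (y := ⟨x, hx⟩) ((mem_FF_tau h.q hv hvz _).2 hF)
  exact congrArg Subtype.val h1

/-- The subgroup `F` is abelian. -/
theorem comm_F {v x y : G} (hvz : v * z = z * v) (hv2 : v ^ 2 = 1) (hvQ : v ∉ Q) (hx : x ∈ Q) (hy : y ∈ Q)
    (hF : v * x * v⁻¹ = x ∨ v * x * v⁻¹ = x * z) (hF' : v * y * v⁻¹ = y ∨ v * y * v⁻¹ = y * z) : Commute x y := by
  have hv := h.n v hvz
  have h1 := F_comm h.q.setting h.q.card (tauG Q v hv) (tauG_invol hv hv2) (tauG_z h.q hv hvz)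
    (h.index_v hvz hv2 hvQ) (y := ⟨x, hx⟩) (y' := ⟨y, hy⟩) ((mem_FF_tau h.q hv hvz _).2 hF)
    ((mem_FF_tau h.q hv hvz _).2 hF')
  exact congrArg Subtype.val h1

/-- Fixed elements have square one. -/
theorem fix_sq {v x : G} (hvz : v * z = z * v) (hv2 : v ^ 2 = 1) (hvQ : v ∉ Q) (hx : x ∈ Q)
    (hf : Commute v x) : x ^ 2 = 1 := by
  have h1 := h.inverts hvz hv2 hvQ hx (Or.inl (conj_eq_of_cmt hf))
  rw [conj_eq_of_cmt hf] at h1
  rw [sq]
  nth_rewrite 1 [h1]
  exact inv_mul_cancel x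

/-- Each element inverted has the form `x⁻¹ (v x v⁻¹)`. -/
theorem form {v y : G} (hvz : v * z = z * v) (hv2 : v ^ 2 = 1) (hvQ : v ∉ Q) (hy : y ∈ Q)
    (hinv : v * y * v⁻¹ = y⁻¹) : ∃ x ∈ Q, y = x⁻¹ * (v * x * v⁻¹) := by
  have hv := h.n v hvz
  have hF : (⟨y, hy⟩ : ↥Q) ∈ FF h.q.setting (tauG Q v hv) (tauG_z h.q hv hvz) := by
    rw [mem_FF_tau h.q hv hvz]
    simp only
    rw [hinv]
    have h1 := inv_cases h.q.setting (⟨y, hy⟩ : ↥Q)
    rcases h1 with e | e
    · left; exact congrArg Subtype.val e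
    · right; exact congrArg Subtype.val e
  obtain ⟨x, hx⟩ := all_form h.q.setting h.q.center_card h.q.card (tauG Q v hv) (tauG_invol hv hv2)
    (tauG_z h.q hv hvz) h.nn (h.index_v hvz hv2 hvQ) hF
  exact ⟨x, x.2, congrArg Subtype.val hx⟩

/-- Two involutions over the same element of `A₅` are conjugate under `Q`. -/
theorem conj_fiber {v w : ↥(CC z)} (hv2 : v ^ 2 = 1) (hw2 : w ^ 2 = 1) (hvQ : (v : G) ∉ Q) (he : π v = π w) :
    ∃ q ∈ Q, (w : G) = q * v * q⁻¹ := by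
  have hvG : (v : G) ^ 2 = 1 := by simpa using congrArg Subtype.val hv2
  have hwG : (w : G) ^ 2 = 1 := by simpa using congrArg Subtype.val hw2
  have hvi := inv_of_sq hvG
  have hwi := inv_of_sq hwG
  have hyQ : (w : G) * v ∈ Q := by
    have : π (w * v⁻¹) = 1 := by rw [map_mul, map_inv, he, mul_inv_cancel]
    have h2 := (h.ker _).1 this
    push_cast at h2
    rwa [hvi] at h2
  have hinv : (v : G) * ((w : G) * v) * (v : G)⁻¹ = ((w : G) * v)⁻¹ := by
    rw [mul_inv_rev, hvi, hwi, mul_assoc, mul_assoc, mm_of_sq hvG, mul_one]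
  obtain ⟨x, hx, hyx⟩ := h.form (h.cz v) hvG hvQ hyQ hinv
  refine ⟨x⁻¹, inv_mem hx, ?_⟩
  have : (w : G) = (w : G) * v * v := by rw [mul_assoc, mm_of_sq hvG, mul_one]
  rw [this, hyx, inv_inv]
  group

/-- The involutions outside `Q` are conjugate in `C`. -/
theorem conj_I {v w : ↥(CC z)} (hv2 : v ^ 2 = 1) (hw2 : w ^ 2 = 1) (hvQ : (v : G) ∉ Q) (hwQ : (w : G) ∉ Q) :
    ∃ c : ↥(CC z), c * v * c⁻¹ = w := by
  have hk : (π v) ^ 2 = 1 := by rw [← map_pow, hv2, map_one]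
  have hk' : (π w) ^ 2 = 1 := by rw [← map_pow, hw2, map_one]
  obtain ⟨g, hg⟩ := a5_conj _ _ hk (h.pi_ne_one hvQ) hk' (h.pi_ne_one hwQ)
  obtain ⟨c, rfl⟩ := h.surj g
  have hm : (c * v * c⁻¹) ^ 2 = 1 := by rw [conj_pow, hv2]; simp
  have hmQ : ((c * v * c⁻¹ : ↥(CC z)) : G) ∉ Q := by
    rw [← h.ker]
    rw [map_mul, map_mul, map_inv, hg]
    exact h.pi_ne_one hwQ
  obtain ⟨q, hq, hqe⟩ := h.conj_fiber (v := c * v * c⁻¹) hm hw2 hmQ (by rw [map_mul, map_mul, map_inv, hg])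
  have hqC : q ∈ CC z := memC.2 (h.q.central q hq)
  refine ⟨⟨q, hqC⟩ * c, ?_⟩
  apply Subtype.ext
  rw [hqe]
  push_cast
  group

/-- Lifts of involutions. -/
theorem lift_inv {v₀ : ↥(CC z)} (hv2 : v₀ ^ 2 = 1) (hvQ : (v₀ : G) ∉ Q) {k : AFive} (hk2 : k ^ 2 = 1) (hk1 : k ≠ 1) :
    ∃ v : ↥(CC z), v ^ 2 = 1 ∧ (v : G) ∉ Q ∧ π v = k := by
  have hk : (π v₀) ^ 2 = 1 := by rw [← map_pow, hv2, map_one]
  obtain ⟨g, hg⟩ := a5_conj _ _ hk (h.pi_ne_one hvQ) hk2 hk1
  obtain ⟨c, rfl⟩ := h.surj g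
  have hπ : π (c * v₀ * c⁻¹) = k := by rw [map_mul, map_mul, map_inv, hg]
  refine ⟨c * v₀ * c⁻¹, by rw [conj_pow, hv2]; simp, ?_, hπ⟩
  rw [← h.ker, hπ]
  exact hk1

/-- The count of `I`. -/
theorem card_I {v₀ : ↥(CC z)} (hv2 : v₀ ^ 2 = 1) (hvQ : (v₀ : G) ∉ Q) :
    Nat.card {v : G // v * z = z * v ∧ v ^ 2 = 1 ∧ v ∉ Q} = 120 := by
  classical
  let I := {v : G // v * z = z * v ∧ v ^ 2 = 1 ∧ v ∉ Q}
  let Ik := {k : AFive // k ^ 2 = 1 ∧ k ≠ 1}
  let f : I → Ik := fun v => ⟨π ⟨v.1, memC.2 v.2.1⟩, by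
    rw [← map_pow]
    have : (⟨v.1, memC.2 v.2.1⟩ : ↥(CC z)) ^ 2 = 1 := Subtype.ext v.2.2.1
    rw [this, map_one], h.pi_ne_one v.2.2.2⟩
  have hIk : Nat.card Ik = 15 := by
    rw [Nat.card_eq_fintype_card]
    exact a5_inv_count
  have hfib : ∀ k : Ik, Nat.card {x : I // f x = k} = 8 := by
    intro k
    obtain ⟨u, hu2, huQ, hπu⟩ := h.lift_inv hv2 hvQ k.2.1 k.2.2
    have huG : (u : G) ^ 2 = 1 := by simpa using congrArg Subtype.val hu2
    have hv' := h.n u (h.cz u)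
    rw [← card_inv h.q.setting h.q.card (tauG Q u hv') (tauG_invol hv' huG) (tauG_z h.q hv' (h.cz u))
      (h.index_v (h.cz u) huG huQ)]
    have hui := inv_of_sq huG
    have huu := mm_of_sq huG
    apply Nat.card_congr
    refine
      { toFun := fun x => ⟨⟨x.1.1 * (u : G), ?_⟩, ?_⟩
        invFun := fun y => ⟨⟨(y.1 : G) * u, ?_, ?_, ?_⟩, ?_⟩
        left_inv := ?_
        right_inv := ?_ }
    · -- in `Q`
      have : π (⟨x.1.1, memC.2 x.1.2.1⟩ * u⁻¹) = 1 := by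
        have hx : π ⟨x.1.1, memC.2 x.1.2.1⟩ = (k : AFive) := congrArg Subtype.val x.2
        rw [map_mul, map_inv, hx, hπu, mul_inv_cancel]
      have h2 := (h.ker _).1 this
      push_cast at h2
      rwa [hui] at h2
    · apply Subtype.ext
      rw [tauG_coe]
      have hxx := mm_of_sq x.1.2.2.1
      simp only [Subgroup.coe_inv]
      rw [mul_inv_rev, hui, inv_of_sq x.1.2.2.1, mul_assoc, mul_assoc, huu, mul_one]
    · have := h.cz u
      have h3 := h.q.central _ y.1.2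
      rw [mul_assoc, this, ← mul_assoc, h3, mul_assoc]
    · have e1 : (u : G) * y.1 * (u : G)⁻¹ = ((y.1 : ↥Q) : G)⁻¹ := congrArg Subtype.val y.2
      have e2 : ((y.1 : G) * u) ^ 2 = (y.1 : G) * ((u : G) * y.1 * (u : G)⁻¹) * ((u : G) * u) := by
        rw [sq]; group
      rw [e2, e1, huu]
      simp
    · intro hm
      apply huQ
      have : (u : G) = (y.1 : G)⁻¹ * ((y.1 : G) * u) := by group
      rw [this]
      exact mul_mem (inv_mem y.1.2) hm
    · apply Subtype.ext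
      change π ⟨(y.1 : G) * u, _⟩ = k.1
      have : (⟨(y.1 : G) * u, memC.2 (by
          have := h.cz u
          have h3 := h.q.central _ y.1.2
          rw [mul_assoc, this, ← mul_assoc, h3, mul_assoc])⟩ : ↥(CC z)) =
          ⟨y.1.1, memC.2 (h.q.central _ y.1.2)⟩ * u := rfl
      rw [this, map_mul, (h.ker _).2 y.1.2, one_mul, hπu]
    · intro x
      apply Subtype.ext
      apply Subtype.ext
      change x.1.1 * (u : G) * u = x.1.1
      rw [mul_assoc, huu, mul_one]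
    · intro y
      apply Subtype.ext
      apply Subtype.ext
      change (y.1 : G) * u * u = y.1
      rw [mul_assoc, huu, mul_one]
  have h1 := card_sigma_const (fun k : Ik => {x : I // f x = k}) 8 hfib
  rw [hIk, Nat.card_congr (Equiv.sigmaFiberEquiv f)] at h1
  rw [show 120 = 15 * 8 by norm_num, ← h1]

theorem VV_card {v : G} (hvz : v * z = z * v) (hv2 : v ^ 2 = 1) (hvQ : v ∉ Q) : Nat.card (VV Q v) = 4 := by
  have hv := h.n v hvz
  rw [← card_in_F h.q.setting h.q.center_card h.q.card (tauG Q v hv) (tauG_invol hv hv2) (tauG_z h.q hv hvz) h.nn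
    (h.index_v hvz hv2 hvQ)]
  apply Nat.card_congr
  refine
    { toFun := fun x => ⟨⟨x.1, (mem_VV.1 x.2).1⟩, ?_, ?_⟩
      invFun := fun u => ⟨u.1.1, mem_VV.2 ⟨u.1.2, ?_⟩⟩
      left_inv := fun _ => rfl
      right_inv := fun _ => rfl }
  · rw [mem_FF_tau h.q hv hvz]
    left
    exact conj_eq_of_cmt (mem_VV.1 x.2).2.symm
  · apply Subtype.ext
    simpa using h.fix_sq hvz hv2 hvQ (mem_VV.1 x.2).1 (mem_VV.1 x.2).2.symm
  · have h1 := (mem_FF_tau h.q hv hvz _).1 u.2.1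
    have h2 := h.inverts hvz hv2 hvQ u.1.2 h1
    have h3 : (u.1 : G) ^ 2 = 1 := by simpa using congrArg Subtype.val u.2.2
    rw [inv_of_sq h3] at h2
    exact (cmt_of_conj_eq h2).symm

theorem z_mem_VV {v : G} (hvz : v * z = z * v) : z ∈ VV Q v := mem_VV.2 ⟨h.q.z_mem, (show Commute v z from hvz).symm⟩

theorem VV_cases {v s x : G} (hvz : v * z = z * v) (hv2 : v ^ 2 = 1) (hvQ : v ∉ Q) (hs : s ∈ VV Q v) (hs1 : s ≠ 1)
    (hsz : s ≠ z) (hx : x ∈ VV Q v) : x = 1 ∨ x = z ∨ x = s ∨ x = s * z := by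
  classical
  have hz1 := h.q.z_ne
  have hzV := h.z_mem_VV hvz
  have hS : ∀ y ∈ ({1, z, s, s * z} : Finset G), y ∈ VV Q v := by
    intro y hy
    simp only [Finset.mem_insert, Finset.mem_singleton] at hy
    rcases hy with rfl | rfl | rfl | rfl
    · exact one_mem _
    · exact hzV
    · exact hs
    · exact mul_mem hs hzV
  have hc : ({1, z, s, s * z} : Finset G).card = 4 := by
    rw [Finset.card_insert_of_notMem, Finset.card_insert_of_notMem, Finset.card_insert_of_notMem,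
      Finset.card_singleton]
    · simp only [Finset.mem_singleton]
      intro e
      apply hz1
      exact mul_left_cancel (a := s) (by rw [← e, mul_one])
    · simp only [Finset.mem_insert, Finset.mem_singleton, not_or]
      refine ⟨hsz.symm, fun e => hs1 ?_⟩
      exact mul_right_cancel (b := z) (by rw [← e, one_mul])
    · simp only [Finset.mem_insert, Finset.mem_singleton, not_or]
      refine ⟨hz1.symm, hs1.symm, fun e => hsz ?_⟩
      have hzz := mm_of_sq h.q.z_sq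
      calc s = s * z * z := by rw [mul_assoc, hzz, mul_one]
        _ = z := by rw [← e, one_mul]
  have := mem_of_card_le hS (by rw [h.VV_card hvz hv2 hvQ, hc]) hx
  simpa only [Finset.mem_insert, Finset.mem_singleton] using this

/-- Conjugation by an element of `Q` moves by at most `z`. -/
theorem conj_Q {q x : G} (hq : q ∈ Q) (hx : x ∈ Q) : q * x * q⁻¹ = x ∨ q * x * q⁻¹ = x * z := by
  rcases h.q.comm q hq x hx with e | e
  · left
    rw [commutatorElement_def] at e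
    exact mul_inv_eq_one.mp e
  · right
    rw [commutatorElement_def] at e
    have := mul_inv_eq_iff_eq_mul.mp e
    rw [this, h.q.central x hx]

/-- The main lemma on the centralizer of `z` and `v`. -/
theorem lemma_A {v b : G} (hvz : v * z = z * v) (hv2 : v ^ 2 = 1) (hvQ : v ∉ Q) (hbz : b * z = z * b)
    (hbv : Commute b v) : (∀ s ∈ VV Q v, Commute b s) ∧ b ^ 2 ≠ z ∧ b ^ 2 ∈ VV Q v := by
  have hzz := mm_of_sq h.q.z_sq
  have hzi : z⁻¹ = z := inv_of_sq h.q.z_sq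
  by_cases hbQ : b ∈ Q
  · have hbV : b ∈ VV Q v := mem_VV.2 ⟨hbQ, hbv⟩
    have hb2 : b ^ 2 = 1 := h.fix_sq hvz hv2 hvQ hbQ hbv.symm
    refine ⟨fun s hs => ?_, by rw [hb2]; exact h.q.z_ne.symm, by rw [hb2]; exact one_mem _⟩
    exact h.comm_F hvz hv2 hvQ hbQ (mem_VV.1 hs).1 (Or.inl (conj_eq_of_cmt hbv.symm))
      (Or.inl (conj_eq_of_cmt (mem_VV.1 hs).2.symm))
  -- `b` is outside `Q`
  set cb : ↥(CC z) := ⟨b, memC.2 hbz⟩ with hcb
  set cv : ↥(CC z) := ⟨v, memC.2 hvz⟩ with hcv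
  have hcv2 : cv ^ 2 = 1 := Subtype.ext hv2
  have hcomm : cb * cv = cv * cb := Subtype.ext hbv
  have hk2 : (π cb) ^ 2 = 1 := by
    apply a5_cent (π cv) (π cb) (by rw [← map_pow, hcv2, map_one]) (h.pi_ne_one hvQ)
    rw [← map_mul, ← map_mul, hcomm]
  obtain ⟨b₀c, hb₀2, hb₀Q, hπb₀⟩ := h.lift_inv hcv2 hvQ hk2 (h.pi_ne_one hbQ)
  set b₀ : G := (↑b₀c : G) with hb₀
  have hb₀G : b₀ ^ 2 = 1 := by simpa using congrArg Subtype.val hb₀2
  have hb₀z : b₀ * z = z * b₀ := h.cz b₀c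
  have hb₀i := inv_of_sq hb₀G
  have hb₀b₀ := mm_of_sq hb₀G
  have hqQ : b₀⁻¹ * b ∈ Q := by
    have e1 : π (b₀c⁻¹ * cb) = 1 := by rw [map_mul, map_inv, hπb₀, inv_mul_cancel]
    exact (h.ker _).1 e1
  set q := b₀⁻¹ * b with hq
  have hb : b = b₀ * q := by rw [hq]; group
  set t := b₀ * q * b₀⁻¹ with ht
  have htQ : t ∈ Q := h.n b₀ hb₀z q hqQ
  have hw : b ^ 2 = t * q := by
    rw [hb, sq, ht, hb₀i]; group
  have hwQ : b ^ 2 ∈ Q := by rw [hw]; exact mul_mem htQ hqQ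
  have hwv : Commute (b ^ 2) v := hbv.pow_left 2
  have hwV : b ^ 2 ∈ VV Q v := mem_VV.2 ⟨hwQ, hwv⟩
  have hw2 : (b ^ 2) ^ 2 = 1 := h.fix_sq hvz hv2 hvQ hwQ hwv.symm
  have hwi := inv_of_sq hw2
  have hτw : b₀ * (t * q) * b₀⁻¹ = q * t := by
    rw [ht, hb₀i]
    calc b₀ * (b₀ * q * b₀ * q) * b₀ = (b₀ * b₀) * q * b₀ * q * b₀ := by group
      _ = q * (b₀ * q * b₀) := by rw [hb₀b₀]; group
  have hwF : b₀ * (t * q) * b₀⁻¹ = t * q ∨ b₀ * (t * q) * b₀⁻¹ = t * q * z := by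
    rw [hτw]
    rcases h.conj_Q hqQ htQ with e | e
    · left
      have := cmt_of_conj_eq e
      exact this.eq
    · right
      have e1 : q * t = q * t * q⁻¹ * q := by group
      rw [e1, e, mul_assoc, ← h.q.central q hqQ, ← mul_assoc]
  have hwinv := h.inverts hb₀z hb₀G hb₀Q (mul_mem htQ hqQ) hwF
  rw [← hw, hwi, hw] at hwinv
  rw [hτw] at hwinv
  have hqt : Commute q t := hwinv
  -- elements of `VV` are fixed by `b₀`
  have hτs : ∀ s ∈ VV Q v, s ≠ 1 → s ≠ z → b₀ * s * b₀⁻¹ = s := by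
    intro s hs hs1 hsz
    have hsQ := (mem_VV.1 hs).1
    have hsv := (mem_VV.1 hs).2
    have hs2 := h.fix_sq hvz hv2 hvQ hsQ hsv.symm
    have hs' : b * s * b⁻¹ ∈ VV Q v := by
      refine mem_VV.2 ⟨h.n b hbz s hsQ, ?_⟩
      have := cmt_conj hsv b
      rwa [conj_eq_of_cmt hbv] at this
    have hcases := h.VV_cases hvz hv2 hvQ hs hs1 hsz hs'
    have hbs : b * s * b⁻¹ = s ∨ b * s * b⁻¹ = s * z := by
      rcases hcases with e | e | e | e
      · exfalso
        apply hs1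
        have : s = b⁻¹ * (b * s * b⁻¹) * b := by group
        rw [this, e]; group
      · exfalso
        apply hsz
        have : s = b⁻¹ * (b * s * b⁻¹) * b := by group
        rw [this, e]
        have hbz' : b⁻¹ * z * b = z := by
          have := conj_eq_of_cmt (show Commute b⁻¹ z from (show Commute b z from hbz).inv_left)
          rwa [inv_inv] at this
        exact hbz'
      · exact Or.inl e
      · exact Or.inr e
    have e0 : b * s * b⁻¹ = b₀ * (q * s * q⁻¹) * b₀⁻¹ := by rw [hb]; group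
    have hb₀F : b₀ * s * b₀⁻¹ = s ∨ b₀ * s * b₀⁻¹ = s * z := by
      rw [e0] at hbs
      rcases h.conj_Q hqQ hsQ with e | e <;> rw [e] at hbs
      · exact hbs
      · rw [conj_mul_z hb₀z] at hbs
        rcases hbs with e' | e'
        · right
          calc b₀ * s * b₀⁻¹ = b₀ * s * b₀⁻¹ * z * z := by rw [mul_assoc _ z z, hzz, mul_one]
            _ = s * z := by rw [e']
        · left
          exact mul_right_cancel e'
    have := h.inverts hb₀z hb₀G hb₀Q hsQ hb₀F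
    rw [this, inv_of_sq hs2]
  have hfin : ∀ s, Commute q s → b₀ * s * b₀⁻¹ = s → Commute b s := by
    intro s hqs hτ
    apply cmt_of_conj_eq
    have e0 : b * s * b⁻¹ = b₀ * (q * s * q⁻¹) * b₀⁻¹ := by rw [hb]; group
    rw [e0, conj_eq_of_cmt hqs, hτ]
  have hcenter : ∀ s : G, s = 1 ∨ s = z → Commute b s := by
    rintro s (rfl | rfl)
    · exact Commute.one_right b
    · exact hbz
  by_cases hwz : b ^ 2 = 1 ∨ b ^ 2 = z
  · -- `q` lies in `F`
    have hqinv' : t = (b ^ 2) * q⁻¹ := by rw [hw]; group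
    have hqF : b₀ * q * b₀⁻¹ = q ∨ b₀ * q * b₀⁻¹ = q * z := by
      rw [← ht, hqinv']
      rcases h.q.sq q hqQ with e | e
      · have hqi := inv_of_sq e
        rw [hqi]
        rcases hwz with e' | e'
        · left; rw [e', one_mul]
        · right; rw [e', h.q.central q hqQ]
      · have hqi : q⁻¹ = q * z := by
          apply inv_eq_of_mul_eq_one_right
          rw [← mul_assoc, ← sq, e, hzz]
        rw [hqi]
        rcases hwz with e' | e'
        · right; rw [e', one_mul]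
        · left; rw [e', ← mul_assoc, ← h.q.central q hqQ, mul_assoc, hzz, mul_one]
    have hqi := h.inverts hb₀z hb₀G hb₀Q hqQ hqF
    have hb21 : b ^ 2 = 1 := by
      rw [hw, ht, hqi, inv_mul_cancel]
    refine ⟨?_, by rw [hb21]; exact h.q.z_ne.symm, hwV⟩
    intro s hs
    by_cases hs1 : s = 1 ∨ s = z
    · exact hcenter s hs1
    push Not at hs1
    have hτ := hτs s hs hs1.1 hs1.2
    refine hfin s ?_ hτ
    exact h.comm_F hb₀z hb₀G hb₀Q hqQ (mem_VV.1 hs).1 hqF (Or.inl hτ)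
  · push Not at hwz
    refine ⟨?_, hwz.2, hwV⟩
    intro s hs
    by_cases hs1 : s = 1 ∨ s = z
    · exact hcenter s hs1
    push Not at hs1
    have hτ := hτs s hs hs1.1 hs1.2
    refine hfin s ?_ hτ
    have hqw : Commute q (b ^ 2) := by
      rw [hw]
      exact hqt.mul_right (Commute.refl q)
    have hqz : Commute q z := h.q.central q hqQ
    rcases h.VV_cases hvz hv2 hvQ hwV hwz.1 hwz.2 hs with e | e | e | e
    · exact absurd e hs1.1
    · exact absurd e hs1.2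
    · rw [e]; exact hqw
    · rw [e]; exact hqw.mul_right hqz

/-- All involutions of `Q` are conjugate to `z`. -/
theorem all_conj (hne : ∃ g : G, g * z * g⁻¹ ∈ Q ∧ g * z * g⁻¹ ≠ z) :
    ∀ x ∈ Q, x ^ 2 = 1 → x ≠ 1 → IsConj z x := by
  classical
  obtain ⟨σ, hσ1, hσ5⟩ := a5_five
  obtain ⟨c, rfl⟩ := h.surj σ
  obtain ⟨hf5, hfix, hnn⟩ := h.five_elt hσ5 hσ1
  set f : G := ((c ^ 384 : ↥(CC z)) : G) with hf
  have hfz : f * z = z * f := h.cz _
  have hf5G : f ^ 5 = 1 := congrArg Subtype.val hf5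
  have hzz := mm_of_sq h.q.z_sq
  let U := {x : G // x ∈ Q ∧ x ^ 2 = 1 ∧ x ≠ 1 ∧ ¬ IsConj z x}
  have hmod5 : Nat.card U ≡ 0 [MOD 5] := by
    let φ : U → U := fun x => ⟨f * x.1 * f⁻¹, h.n f hfz _ x.2.1, by rw [conj_pow, x.2.2.1]; simp,
      fun e => x.2.2.2.1 (by
        have : x.1 = f⁻¹ * (f * x.1 * f⁻¹) * f := by group
        rw [this, e]; group),
      fun e => x.2.2.2.2 (e.trans (isConj_iff.2 ⟨f⁻¹, by group⟩))⟩
    have h1 := card_mod5 (α := U) φ (fun x => by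
        apply Subtype.ext
        change f * (f * (f * (f * (f * x.1 * f⁻¹) * f⁻¹) * f⁻¹) * f⁻¹) * f⁻¹ = x.1
        have e5 : f * f * f * f * f = 1 := by
          rw [← hf5G]; simp only [pow_succ, pow_zero, one_mul]
        calc _ = (f * f * f * f * f) * x.1 * (f * f * f * f * f)⁻¹ := by group
          _ = x.1 := by rw [e5]; simp)
    refine h1.trans ?_
    have : IsEmpty {a : U // φ a = a} := ⟨fun a => by
      have e1 : f * a.1.1 * f⁻¹ = a.1.1 := congrArg Subtype.val a.2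
      have hn : ¬ IsConj z (a.1.1 : G) := a.1.2.2.2.2
      have hn1 : (a.1.1 : G) ≠ 1 := a.1.2.2.2.1
      rcases hfix a.1.1 a.1.2.1 (cmt_of_conj_eq e1) with e | e
      · exact hn1 e
      · rw [e] at hn
        exact hn (IsConj.refl _)⟩
    rw [Nat.card_of_isEmpty]
  have hconjz : ∀ x : U, IsConj x.1 (x.1 * z) := by
    intro x
    have hex : ∃ y ∈ Q, x.1 * y ≠ y * x.1 := by
      by_contra hn
      push Not at hn
      rcases h.q.cent _ hn with e | e
      · exact x.2.2.2.1 e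
      · have hn : ¬ IsConj z (x.1 : G) := x.2.2.2.2
        rw [e] at hn
        exact hn (IsConj.refl _)
    obtain ⟨y, hy, hyx⟩ := hex
    rcases h.conj_Q hy x.2.1 with e | e
    · exact absurd (cmt_of_conj_eq e).eq.symm hyx
    · exact isConj_iff.2 ⟨y, e⟩
  have hmod2 : Nat.card U ≡ 0 [MOD 2] := by
    let φ : U → U := fun x => ⟨x.1 * z, mul_mem x.2.1 h.q.z_mem, by
        have e : Commute x.1 z := h.q.central _ x.2.1
        rw [e.mul_pow, x.2.2.1, h.q.z_sq, one_mul],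
      fun e => x.2.2.2.2 (by
        have e1 : x.1 = z := by
          calc x.1 = x.1 * z * z := by rw [mul_assoc, hzz, mul_one]
            _ = z := by rw [e, one_mul]
        rw [e1]),
      fun e => x.2.2.2.2 (e.trans (hconjz x).symm)⟩
    have h1 := card_fix_two (α := U) φ (fun x => by
        apply Subtype.ext
        change x.1 * z * z = x.1
        rw [mul_assoc, hzz, mul_one])
    refine h1.trans ?_
    have : IsEmpty {a : U // φ a = a} := ⟨fun a => by
      have e1 : a.1.1 * z = a.1.1 := congrArg Subtype.val a.2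
      apply h.q.z_ne
      exact mul_left_cancel (a := a.1.1) (by rw [e1, mul_one])⟩
    rw [Nat.card_of_isEmpty]
  obtain ⟨g, hgQ, hgz⟩ := hne
  have hU9 : Nat.card U + 3 ≤ 12 := by
    have hS : Nat.card {a : ↥Q // a ^ 2 = 1} = 12 := hnn
    rw [← hS]
    have h2 : Nat.card U = Nat.card {a : {a : ↥Q // a ^ 2 = 1} // (a.1 : G) ≠ 1 ∧ ¬ IsConj z (a.1 : G)} := by
      apply Nat.card_congr
      refine
        { toFun := fun x => ⟨⟨⟨x.1, x.2.1⟩, Subtype.ext x.2.2.1⟩, x.2.2.2⟩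
          invFun := fun a => ⟨a.1.1.1, a.1.1.2, by simpa using congrArg Subtype.val a.1.2, a.2⟩
          left_inv := fun _ => rfl
          right_inv := fun _ => rfl }
    rw [h2]
    have hg2 : (g * z * g⁻¹) ^ 2 = 1 := by rw [conj_pow, h.q.z_sq]; simp
    have hg1 : g * z * g⁻¹ ≠ 1 := by
      intro e
      apply h.q.z_ne
      have : z = g⁻¹ * (g * z * g⁻¹) * g := by group
      rw [this, e]; group
    refine card_add_three (fun a : {a : ↥Q // a ^ 2 = 1} => (a.1 : G) ≠ 1 ∧ ¬ IsConj z (a.1 : G))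
      (a := ⟨1, one_pow 2⟩) (b := ⟨⟨z, h.q.z_mem⟩, Subtype.ext h.q.z_sq⟩) (c := ⟨⟨g * z * g⁻¹, hgQ⟩, Subtype.ext hg2⟩) ?_ ?_ ?_ ?_ ?_ ?_
    · rintro ⟨e, -⟩
      exact e rfl
    · rintro ⟨-, e⟩
      exact e (IsConj.refl _)
    · rintro ⟨-, e⟩
      exact e (isConj_iff.2 ⟨g, rfl⟩)
    · intro e
      exact h.q.z_ne (congrArg (fun w : {a : ↥Q // a ^ 2 = 1} => ((w.1 : ↥Q) : G)) e).symm
    · intro e
      exact hg1 (congrArg (fun w : {a : ↥Q // a ^ 2 = 1} => ((w.1 : ↥Q) : G)) e).symm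
    · intro e
      exact hgz (congrArg (fun w : {a : ↥Q // a ^ 2 = 1} => ((w.1 : ↥Q) : G)) e).symm
  have hU0 : Nat.card U = 0 := by
    change Nat.card U % 5 = 0 % 5 at hmod5
    change Nat.card U % 2 = 0 % 2 at hmod2
    omega
  intro x hx hx2 hx1
  by_contra hn
  have : Nonempty U := ⟨⟨x, hx, hx2, hx1, hn⟩⟩
  have h3 : 0 < Nat.card U := Nat.card_pos
  omega

/-- Every involution is conjugate into `C(z)`. -/
theorem conj_into_C {t : G} (ht : t ^ 2 = 1) : ∃ g : G, (g * t * g⁻¹) * z = z * (g * t * g⁻¹) := by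
  classical
  by_cases ht1 : t = 1
  · exact ⟨1, by rw [ht1]; simp⟩
  have hF2 : Fact (Nat.Prime 2) := ⟨Nat.prime_two⟩
  have hQ2 : IsPGroup 2 ↥Q := IsPGroup.of_card (n := 5) (by rw [h.q.card]; norm_num)
  have hQ2' : IsPGroup 2 Q := hQ2
  obtain ⟨S, hS⟩ := hQ2'.exists_le_sylow
  have hzS : z ∈ (S : Subgroup G) := hS h.q.z_mem
  have hnt : Nontrivial ↥(S : Subgroup G) :=
    ⟨⟨⟨z, hzS⟩, 1, fun e => h.q.z_ne (congrArg Subtype.val e)⟩⟩
  have hcn : Nontrivial (center ↥(S : Subgroup G)) := S.isPGroup'.center_nontrivial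
  obtain ⟨⟨⟨a, haS⟩, hac⟩, ha1⟩ := exists_ne (1 : center ↥(S : Subgroup G))
  have haz : a = 1 ∨ a = z := by
    apply h.q.cent
    intro x hx
    have := mem_center_iff.mp hac ⟨x, hS hx⟩
    exact (congrArg Subtype.val this).symm
  have haz' : a = z := by
    rcases haz with e | e
    · exfalso
      apply ha1
      apply Subtype.ext
      apply Subtype.ext
      exact e
    · exact e
  subst haz'
  have hto : orderOf t = 2 := orderOf_eq_prime ht ht1
  have hp : IsPGroup 2 (zpowers t) := IsPGroup.of_card (n := 1) (by rw [Nat.card_zpowers, hto]; norm_num)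
  obtain ⟨S', hS'⟩ := hp.exists_le_sylow
  obtain ⟨g, hg⟩ := MulAction.exists_smul_eq G S' S
  have htS' : t ∈ (S' : Subgroup G) := hS' (mem_zpowers t)
  have hgt : g * t * g⁻¹ ∈ (S : Subgroup G) := by
    rw [← hg, Sylow.coe_subgroup_smul]
    exact Subgroup.smul_mem_pointwise_smul t (MulAut.conj g) _ htS'
  refine ⟨g, ?_⟩
  have := mem_center_iff.mp hac ⟨_, hgt⟩
  exact (congrArg Subtype.val this)

--PART5
end HS

end Cfsg.Agent.Lib.HJT.Frame
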