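import Mathlib
import Cfsg.Agent.Lib.HJOrder.Local
import Cfsg.Agent.Lib.StrongEmb.Basic

/-!
# A counting theorem for a set of involutions with commuting triples

`R` is a conjugation-closed set of involutions of a finite group `X`, such that the centralizer of
each `u ∈ R` has exponent two and order 16, and `V u = {1} ∪ {w ∈ R commuting with u}` is a
four-group.  Then either all of `R` commutes, or `|R| = 15`.
-/

set_option autoImplicit false
set_option linter.unusedSectionVars false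
set_option linter.unusedVariables false
set_option linter.style.longLine false

namespace Cfsg.Agent.Lib.HJT.Geo

open Subgroup

variable {X : Type*} [Group X]

theorem cmt_conj {x y : X} (h : Commute x y) (g : X) : Commute (g * x * g⁻¹) (g * y * g⁻¹) := by
  have := h.map (MulAut.conj g).toMonoidHom
  simpa [MulAut.conj_apply] using this

theorem cmt_unconj {x y : X} {g : X} (h : Commute (g * x * g⁻¹) (g * y * g⁻¹)) : Commute x y := by
  have := cmt_conj h g⁻¹
  have e : ∀ a : X, g⁻¹ * (g * a * g⁻¹) * g⁻¹⁻¹ = a := fun a => by group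
  rwa [e, e] at this

theorem inv_of_sq {x : X} (h : x ^ 2 = 1) : x⁻¹ = x := inv_eq_of_mul_eq_one_right (by rw [← sq, h])

theorem mm_of_sq {x : X} (h : x ^ 2 = 1) : x * x = 1 := by rw [← sq, h]

theorem conj_eq_of_cmt {g x : X} (h : Commute g x) : g * x * g⁻¹ = x := by
  rw [h.eq, mul_assoc, mul_inv_cancel, mul_one]

theorem cmt_of_conj_eq {g x : X} (h : g * x * g⁻¹ = x) : Commute g x := mul_inv_eq_iff_eq_mul.mp h

theorem conj_conj (g k x : X) : g * (k * x * k⁻¹) * g⁻¹ = (g * k) * x * (g * k)⁻¹ := by group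

theorem conj_inj {g x y : X} (h : g * x * g⁻¹ = g * y * g⁻¹) : x = y := by
  simpa using h

theorem mid_formula {t s : X} [Finite X] (ht : t ^ 2 = 1) (hs : s ^ 2 = 1) (hodd : Odd (orderOf (t * s))) :
    ∃ h : X, (h * t * h⁻¹) * t * (h * t * h⁻¹)⁻¹ = s := by
  obtain ⟨k, hk⟩ := hodd
  set g := t * s with hg
  have hti := inv_of_sq ht
  have hsi := inv_of_sq hs
  have htt := mm_of_sq ht
  have hinv : t * g * t⁻¹ = g⁻¹ := by
    rw [hg, hti, mul_inv_rev, hsi, hti, ← mul_assoc, htt, one_mul]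
  set h := g ^ (-((k : ℤ) + 1) ^ 2) with hh
  have tht : t * h * t⁻¹ = h⁻¹ := by
    rw [hh, ← conj_zpow, hinv, inv_zpow]
  have h4 : h ^ 4 = g⁻¹ := by
    have e : (-((k : ℤ) + 1) ^ 2) * ((4 : ℕ) : ℤ) = -1 + ((orderOf g : ℕ) : ℤ) * (-(2 * (k : ℤ) + 3)) := by
      rw [hk]; push_cast; ring
    rw [hh, ← zpow_natCast, ← zpow_mul, e, zpow_add, zpow_mul, zpow_natCast, pow_orderOf_eq_one, one_zpow,
      mul_one, zpow_neg_one]
  have e1 : t * h⁻¹ = h * t := by
    rw [← tht, hti]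
    calc t * (t * h * t) = (t * t) * h * t := by group
      _ = h * t := by rw [htt, one_mul]
  refine ⟨h, ?_⟩
  have e2 : (h * t * h⁻¹)⁻¹ = h * t * h⁻¹ := by
    rw [mul_inv_rev, mul_inv_rev, inv_inv, hti, mul_assoc]
  rw [e2]
  have e3 : h * t * h⁻¹ * t * (h * t * h⁻¹) = h ^ 4 * t := by
    have e4 : h * t * h⁻¹ = h * h * t := by rw [mul_assoc, e1, mul_assoc]
    rw [e4]
    calc h * h * t * t * (h * h * t) = h * h * (t * t) * (h * h * t) := by group
      _ = h ^ 4 * t := by rw [htt]; simp only [pow_succ, pow_zero, one_mul, mul_one, mul_assoc]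
  rw [e3, h4, hg, mul_inv_rev, hsi, hti, mul_assoc, htt, mul_one]

/-- Fixed points modulo `2`, `2²`. -/
theorem card_fix_two {α : Type*} [Finite α] (f : α → α) (hf : ∀ a, f (f a) = a) :
    Nat.card α ≡ Nat.card {a // f a = a} [MOD 2] := by
  classical
  cases nonempty_fintype α
  have hF5 : Fact (Nat.Prime 2) := ⟨by norm_num⟩
  let F : Function.End α := f
  have hF : F ^ 2 ^ 1 = 1 := by
    funext a
    exact hf a
  have h := Equiv.Perm.card_fixedPoints_modEq hF
  rw [← Nat.card_eq_fintype_card, ← Nat.card_eq_fintype_card] at h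
  have h2 : Nat.card (Function.fixedPoints F) = Nat.card {a // f a = a} :=
    Nat.card_congr ⟨fun x => ⟨x.1, x.2⟩, fun x => ⟨x.1, x.2⟩, fun _ => rfl, fun _ => rfl⟩
  rwa [h2] at h

theorem card_fix_four {α : Type*} [Finite α] (f : α → α) (hf : ∀ a, f (f (f (f a))) = a) :
    Nat.card α ≡ Nat.card {a // f a = a} [MOD 2] := by
  classical
  cases nonempty_fintype α
  have hF5 : Fact (Nat.Prime 2) := ⟨by norm_num⟩
  let F : Function.End α := f
  have hF : F ^ 2 ^ 2 = 1 := by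
    funext a
    exact hf a
  have h := Equiv.Perm.card_fixedPoints_modEq hF
  rw [← Nat.card_eq_fintype_card, ← Nat.card_eq_fintype_card] at h
  have h2 : Nat.card (Function.fixedPoints F) = Nat.card {a // f a = a} :=
    Nat.card_congr ⟨fun x => ⟨x.1, x.2⟩, fun x => ⟨x.1, x.2⟩, fun _ => rfl, fun _ => rfl⟩
  rwa [h2] at h

theorem card_fix_three {α : Type*} [Finite α] (f : α → α) (hf : ∀ a, f (f (f a)) = a) :
    Nat.card α ≡ Nat.card {a // f a = a} [MOD 3] := by
  classical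
  cases nonempty_fintype α
  have hF5 : Fact (Nat.Prime 3) := ⟨by norm_num⟩
  let F : Function.End α := f
  have hF : F ^ 3 ^ 1 = 1 := by
    funext a
    exact hf a
  have h := Equiv.Perm.card_fixedPoints_modEq hF
  rw [← Nat.card_eq_fintype_card, ← Nat.card_eq_fintype_card] at h
  have h2 : Nat.card (Function.fixedPoints F) = Nat.card {a // f a = a} :=
    Nat.card_congr ⟨fun x => ⟨x.1, x.2⟩, fun x => ⟨x.1, x.2⟩, fun _ => rfl, fun _ => rfl⟩
  rwa [h2] at h

/-- Membership from a cardinality bound. -/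
theorem mem_of_card_le [Finite X] {A : Subgroup X} {S : Finset X} (hS : ∀ x ∈ S, x ∈ A)
    (hc : Nat.card A ≤ S.card) {x : X} (hx : x ∈ A) : x ∈ S := by
  classical
  by_contra hn
  have h1 : ((insert x S : Finset X) : Set X).ncard ≤ ((A : Subgroup X) : Set X).ncard := by
    apply Set.ncard_le_ncard _ (Set.toFinite _)
    intro y hy
    simp only [Finset.coe_insert, Set.mem_insert_iff, Finset.mem_coe] at hy
    rcases hy with rfl | hy
    · exact hx
    · exact hS y hy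
  rw [Set.ncard_coe_finset, Finset.card_insert_of_notMem hn, ← Nat.card_coe_set_eq] at h1
  change S.card + 1 ≤ Nat.card A at h1
  omega

theorem card_le_of_mem [Finite X] {A : Subgroup X} {S : Finset X} (hS : ∀ x ∈ A, x ∈ S) :
    Nat.card A ≤ S.card := by
  have h1 : ((A : Subgroup X) : Set X).ncard ≤ ((S : Finset X) : Set X).ncard := by
    apply Set.ncard_le_ncard _ (Set.toFinite _)
    intro y hy
    exact hS y hy
  rw [Set.ncard_coe_finset, ← Nat.card_coe_set_eq] at h1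
  exact h1

/-- In a group without elements of order four, the cyclic 2-part splits off. -/
theorem odd_mul_central [Finite X] (h4 : ∀ b : X, b ^ 4 = 1 → b ^ 2 = 1) {g : X} (he : Even (orderOf g)) :
    Odd (orderOf (g * g ^ (orderOf g / 2))) := by
  obtain ⟨m, hm⟩ := he
  have hpos : 0 < orderOf g := orderOf_pos g
  have hm0 : 0 < m := by omega
  have hdiv : orderOf g / 2 = m := by omega
  rw [hdiv]
  have hmodd : Odd m := by
    by_contra hn
    rw [Nat.not_odd_iff_even] at hn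
    obtain ⟨l, hl⟩ := hn
    have h1 := h4 (g ^ l) (by
      rw [← pow_mul]
      have : l * 4 = orderOf g := by omega
      rw [this, pow_orderOf_eq_one])
    rw [← pow_mul] at h1
    have h2 := orderOf_dvd_of_pow_eq_one h1
    have h3 := Nat.le_of_dvd (by omega) h2
    omega
  have hi2 : (g ^ m) ^ 2 = 1 := by
    rw [← pow_mul, mul_two, ← hm, pow_orderOf_eq_one]
  have hc : Commute g (g ^ m) := (Commute.refl g).pow_right m
  have h1 : (g * g ^ m) ^ m = 1 := by
    rw [hc.mul_pow]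
    obtain ⟨j, hj⟩ := hmodd
    have key : ∀ w : X, w ^ 2 = 1 → w ^ (2 * j + 1) = w := fun w hw => by
      rw [pow_succ, pow_mul, hw, one_pow, one_mul]
    have : (g ^ m) ^ m = g ^ m := by
      calc (g ^ m) ^ m = (g ^ m) ^ (2 * j + 1) := by rw [← hj]
        _ = g ^ m := key _ hi2
    rw [this, ← sq, hi2]
  exact Odd.of_dvd_nat hmodd (orderOf_dvd_of_pow_eq_one h1)

/-- The geometry. -/
structure Geom (R : Set X) (V : X → Subgroup X) (v₀ : X) : Prop where
  sq : ∀ u ∈ R, u ^ 2 = 1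
  one_notR : (1 : X) ∉ R
  conj_mem : ∀ u ∈ R, ∀ g : X, g * u * g⁻¹ ∈ R
  mem_V : ∀ u ∈ R, ∀ x, x ∈ V u ↔ x = 1 ∨ (x ∈ R ∧ Commute x u)
  card_V : ∀ u ∈ R, Nat.card (V u) = 4
  cent_eq : ∀ u ∈ R, ∀ w ∈ R, Commute w u → ∀ g : X, Commute g u → Commute g w
  cent_sq : ∀ u ∈ R, ∀ g : X, Commute g u → g ^ 2 = 1
  card_C : ∀ u ∈ R, Nat.card (centralizer ({u} : Set X)) = 16
  v₀_central : ∀ g : X, Commute g v₀
  v₀_ne : v₀ ≠ 1
  v₀_notR : v₀ ∉ R

/-- `r` normalizes the line through `a`. -/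
def Nm (r a : X) : Prop := Commute (r * a * r⁻¹) a

namespace Geom

variable [Finite X] {R : Set X} {V : X → Subgroup X} {v₀ : X} (h : Geom R V v₀)
include h

theorem ne_one {a : X} (ha : a ∈ R) : a ≠ 1 := fun e => h.one_notR (e ▸ ha)

theorem trans {a b c : X} (ha : a ∈ R) (hb : b ∈ R) (hc : c ∈ R) (hab : Commute a b) (hbc : Commute b c) :
    Commute a c := (h.cent_eq b hb a ha hab c hbc.symm).symm

theorem self_V {a : X} (ha : a ∈ R) : a ∈ V a := (h.mem_V a ha a).2 (Or.inr ⟨ha, Commute.refl a⟩)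

theorem mem_V' {a x : X} (ha : a ∈ R) (hx : x ∈ R) (hc : Commute x a) : x ∈ V a :=
  (h.mem_V a ha x).2 (Or.inr ⟨hx, hc⟩)

theorem of_V {a x : X} (ha : a ∈ R) (hx : x ∈ V a) (h1 : x ≠ 1) : x ∈ R ∧ Commute x a :=
  ((h.mem_V a ha x).1 hx).resolve_left h1

/-- Three points on a line determine each other. -/
theorem third {a p q : X} (ha : a ∈ R) (hp : p ∈ R) (hq : q ∈ R) (hpa : Commute p a) (hqa : Commute q a)
    (h1 : p ≠ a) (h2 : q ≠ a) (h3 : p ≠ q) :
    a * p = q ∧ ∀ x, x ∈ V a → x = 1 ∨ x = a ∨ x = p ∨ x = q := by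
  classical
  have ha1 := h.ne_one ha
  have hp1 := h.ne_one hp
  have hq1 := h.ne_one hq
  have hS : ∀ x ∈ ({1, a, p, q} : Finset X), x ∈ V a := by
    intro x hx
    simp only [Finset.mem_insert, Finset.mem_singleton] at hx
    rcases hx with rfl | rfl | rfl | rfl
    · exact one_mem _
    · exact h.self_V ha
    · exact h.mem_V' ha hp hpa
    · exact h.mem_V' ha hq hqa
  have hc : ({1, a, p, q} : Finset X).card = 4 := by
    rw [Finset.card_insert_of_notMem, Finset.card_insert_of_notMem, Finset.card_insert_of_notMem,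
      Finset.card_singleton]
    · simpa using h3
    · simp only [Finset.mem_insert, Finset.mem_singleton, not_or]
      exact ⟨h1.symm, h2.symm⟩
    · simp only [Finset.mem_insert, Finset.mem_singleton, not_or]
      exact ⟨ha1.symm, hp1.symm, hq1.symm⟩
  have hall : ∀ x, x ∈ V a → x ∈ ({1, a, p, q} : Finset X) := fun x hx =>
    mem_of_card_le hS (by rw [h.card_V a ha, hc]) hx
  have hm : a * p ∈ V a := mul_mem (h.self_V ha) (h.mem_V' ha hp hpa)
  have h4 := hall _ hm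
  simp only [Finset.mem_insert, Finset.mem_singleton] at h4
  have hai := inv_of_sq (h.sq a ha)
  constructor
  · rcases h4 with e | e | e | e
    · exfalso
      apply h1
      have := eq_inv_of_mul_eq_one_right e
      rw [this, hai]
    · exfalso
      apply hp1
      exact mul_left_cancel (a := a) (by rw [e, mul_one])
    · exfalso
      apply ha1
      exact mul_right_cancel (b := p) (by rw [e, one_mul])
    · exact e
  · intro x hx
    have := hall x hx
    simpa only [Finset.mem_insert, Finset.mem_singleton] using this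

/-- A line has three points. -/
theorem three {a : X} (ha : a ∈ R) : ∃ p q : X, p ∈ R ∧ q ∈ R ∧ Commute p a ∧ Commute q a ∧ p ≠ a ∧ q ≠ a ∧ p ≠ q := by
  classical
  have hex : ∃ p ∈ V a, p ≠ 1 ∧ p ≠ a := by
    by_contra hn
    push Not at hn
    have : Nat.card (V a) ≤ ({1, a} : Finset X).card := by
      apply card_le_of_mem
      intro x hx
      simp only [Finset.mem_insert, Finset.mem_singleton]
      by_cases e : x = 1
      · exact Or.inl e
      · exact Or.inr (hn x hx e)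
    have h2 : ({1, a} : Finset X).card ≤ 2 := Finset.card_le_two
    rw [h.card_V a ha] at this
    omega
  obtain ⟨p, hp, hp1, hpa⟩ := hex
  obtain ⟨hpR, hpc⟩ := h.of_V ha hp hp1
  have hai := inv_of_sq (h.sq a ha)
  have hq : a * p ∈ V a := mul_mem (h.self_V ha) hp
  have hq1 : a * p ≠ 1 := by
    intro e
    apply hpa
    have := eq_inv_of_mul_eq_one_right e
    rw [this, hai]
  obtain ⟨hqR, hqc⟩ := h.of_V ha hq hq1
  refine ⟨p, a * p, hpR, hqR, hpc, hqc, hpa, ?_, ?_⟩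
  · intro e
    apply hp1
    exact mul_left_cancel (a := a) (by rw [e, mul_one])
  · intro e
    apply h.ne_one ha
    exact mul_right_cancel (b := p) (by rw [← e, one_mul])

/-- All points of a line. -/
theorem line_cases {a p q : X} (ha : a ∈ R) (hp : p ∈ R) (hq : q ∈ R) (hpa : Commute p a) (hqa : Commute q a)
    (h1 : p ≠ a) (h2 : q ≠ a) (h3 : p ≠ q) {x : X} (hx : x ∈ R) (hxa : Commute x a) : x = a ∨ x = p ∨ x = q := by
  rcases (h.third ha hp hq hpa hqa h1 h2 h3).2 x (h.mem_V' ha hx hxa) with e | e | e | e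
  · exact absurd e (h.ne_one hx)
  · exact Or.inl e
  · exact Or.inr (Or.inl e)
  · exact Or.inr (Or.inr e)

theorem card_line {a : X} (ha : a ∈ R) : Nat.card {x // x ∈ R ∧ Commute x a} = 3 := by
  classical
  obtain ⟨p, q, hp, hq, hpa, hqa, h1, h2, h3⟩ := h.three ha
  have e : {x | x ∈ R ∧ Commute x a} = (({a, p, q} : Finset X) : Set X) := by
    ext x
    simp only [Set.mem_setOf_eq, Finset.coe_insert, Finset.coe_singleton, Set.mem_insert_iff, Set.mem_singleton_iff]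
    constructor
    · rintro ⟨hx, hxa⟩
      exact h.line_cases ha hp hq hpa hqa h1 h2 h3 hx hxa
    · rintro (rfl | rfl | rfl)
      · exact ⟨ha, Commute.refl _⟩
      · exact ⟨hp, hpa⟩
      · exact ⟨hq, hqa⟩
  have h4 : Nat.card {x // x ∈ R ∧ Commute x a} = ({x | x ∈ R ∧ Commute x a} : Set X).ncard :=
    (Nat.card_coe_set_eq _)
  rw [h4, e, Set.ncard_coe_finset, Finset.card_insert_of_notMem, Finset.card_insert_of_notMem, Finset.card_singleton]
  · simpa using h3
  · simp only [Finset.mem_insert, Finset.mem_singleton, not_or]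
    exact ⟨h1.symm, h2.symm⟩

/-- No elements of order four. -/
theorem no_four {a₀ : X} (ha₀ : a₀ ∈ R) (b : X) (hb : b ^ 4 = 1) : b ^ 2 = 1 := by
  have h1 := card_fix_two (α := {x // x ∈ R})
    (fun x => ⟨a₀ * x.1 * a₀⁻¹, h.conj_mem x.1 x.2 a₀⟩) (fun x => by
      apply Subtype.ext
      change a₀ * (a₀ * x.1 * a₀⁻¹) * a₀⁻¹ = x.1
      rw [conj_conj, mm_of_sq (h.sq a₀ ha₀)]
      simp)
  have h2 := card_fix_four (α := {x // x ∈ R})
    (fun x => ⟨b * x.1 * b⁻¹, h.conj_mem x.1 x.2 b⟩) (fun x => by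
      apply Subtype.ext
      change b * (b * (b * (b * x.1 * b⁻¹) * b⁻¹) * b⁻¹) * b⁻¹ = x.1
      rw [conj_conj, conj_conj, conj_conj]
      have : b * b * b * b = 1 := by
        rw [← hb]
        simp only [pow_succ, pow_zero, one_mul, mul_assoc]
      rw [this]
      simp)
  have h3 : Nat.card {x : {x // x ∈ R} // (⟨a₀ * x.1 * a₀⁻¹, h.conj_mem x.1 x.2 a₀⟩ : {x // x ∈ R}) = x} = 3 := by
    rw [← h.card_line ha₀]
    apply Nat.card_congr
    refine ⟨fun x => ⟨x.1.1, x.1.2, (cmt_of_conj_eq (congrArg Subtype.val x.2)).symm⟩,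
      fun x => ⟨⟨x.1, x.2.1⟩, Subtype.ext (conj_eq_of_cmt x.2.2.symm)⟩, fun _ => rfl, fun _ => rfl⟩
  rw [h3] at h1
  have h4 := h1.symm.trans h2
  have h5 : Nat.card {x : {x // x ∈ R} // (⟨b * x.1 * b⁻¹, h.conj_mem x.1 x.2 b⟩ : {x // x ∈ R}) = x} ≠ 0 := by
    intro e
    rw [e] at h4
    exact absurd h4 (by decide)
  obtain ⟨⟨⟨u, hu⟩, huf⟩⟩ := (Nat.card_ne_zero.mp h5).1
  have h6 : b * u * b⁻¹ = u := congrArg Subtype.val huf
  exact h.cent_sq u hu b (cmt_of_conj_eq h6)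

open Cfsg.Agent.Lib.Involutions.Dihedral in
/-- Non-commuting points have a product of odd order. -/
theorem odd_prod {x x' : X} (hx : x ∈ R) (hx' : x' ∈ R) (hn : ¬ Commute x x') : Odd (orderOf (x * x')) := by
  by_contra hodd
  rw [Nat.not_odd_iff_even] at hodd
  obtain ⟨hw, hwx, hwx'⟩ := central_involution (h.sq x hx) (h.sq x' hx') hodd
  have hoddg := odd_mul_central (h.no_four hx) hodd
  set i := (x * x') ^ (orderOf (x * x') / 2) with hi
  have hi2 : i ^ 2 = 1 := by rw [← hw]; exact pow_orderOf_eq_one i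
  have hi1 : i ≠ 1 := by
    intro e
    rw [e] at hw
    simp at hw
  have hy2 : (x * i) ^ 2 = 1 := by
    rw [hwx.symm.mul_pow, h.sq x hx, hi2, one_mul]
  have e1 : x * i * x' = x * x' * i := by rw [mul_assoc, hwx'.eq, mul_assoc]
  obtain ⟨j, -, hj, -⟩ := Cfsg.Agent.Lib.StrongEmb.Basic.exists_midpoint hy2 (h.sq x' hx') (by rw [e1]; exact hoddg)
  have hyR : x * i ∈ R := by
    have := h.conj_mem x' hx' j⁻¹
    rw [← hj] at this
    have e2 : j⁻¹ * (j * (x * i) * j⁻¹) * j⁻¹⁻¹ = x * i := by group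
    rwa [e2] at this
  have hyx : Commute (x * i) x := (Commute.refl x).mul_left hwx
  have hyV := h.mem_V' hx hyR hyx
  have hiV : i ∈ V x := by
    have := mul_mem (h.self_V hx) hyV
    rwa [← mul_assoc, mm_of_sq (h.sq x hx), one_mul] at this
  obtain ⟨hiR, hic⟩ := h.of_V hx hiV hi1
  apply hn
  exact (h.cent_eq i hiR x hx hic.symm x' hwx'.symm).symm

/-- Midpoints in `R`. -/
theorem exists_mid {x x' : X} (hx : x ∈ R) (hx' : x' ∈ R) (hn : ¬ Commute x x') : ∃ i ∈ R, i * x * i⁻¹ = x' := by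
  obtain ⟨k, hk⟩ := mid_formula (h.sq x hx) (h.sq x' hx') (h.odd_prod hx hx' hn)
  exact ⟨k * x * k⁻¹, h.conj_mem x hx k, hk⟩

theorem swap {i x x' : X} (hi : i ∈ R) (hc : i * x * i⁻¹ = x') : i * x' * i⁻¹ = x := by
  rw [← hc, conj_conj, mm_of_sq (h.sq i hi)]
  simp

theorem mid_unique {x x' i i' : X} (hx : x ∈ R) (hi : i ∈ R) (hi' : i' ∈ R) (hc : i * x * i⁻¹ = x')
    (hc' : i' * x * i'⁻¹ = x') (hn : ¬ Commute x x') : i = i' := by
  have hii := inv_of_sq (h.sq i hi)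
  have hii' := inv_of_sq (h.sq i' hi')
  have hb : Commute (i * i') x := by
    apply cmt_of_conj_eq
    rw [← conj_conj, hc', h.swap hi hc]
  have hb2 := h.cent_sq x hx _ hb
  have hcm : Commute i i' := by
    have e : i * i' * (i * i') = 1 := mm_of_sq hb2
    have e2 := inv_eq_of_mul_eq_one_right e
    rw [mul_inv_rev, hii, hii'] at e2
    exact e2.symm
  by_contra hne
  have hb1 : i * i' ≠ 1 := by
    intro e
    apply hne
    have := eq_inv_of_mul_eq_one_left e
    rw [this, hii']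
  have hbV : i * i' ∈ V i := mul_mem (h.self_V hi) (h.mem_V' hi hi' hcm.symm)
  obtain ⟨hbR, hbc⟩ := h.of_V hi hbV hb1
  have hix : Commute i x := h.trans hi hbR hx hbc.symm hb
  apply hn
  have e3 := conj_eq_of_cmt hix
  rw [hc] at e3
  rw [e3]

theorem comm_of_mid {x x' i c : X} (hx : x ∈ R) (hi : i ∈ R) (hc : i * x * i⁻¹ = x') (hn : ¬ Commute x x')
    (h1 : Commute c x) (h2 : Commute c x') : Commute c i := by
  apply cmt_of_conj_eq
  refine h.mid_unique hx (h.conj_mem i hi c) hi ?_ hc hn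
  have e1 : (c * i * c⁻¹) * x * (c * i * c⁻¹)⁻¹ = c * (i * (c⁻¹ * x * c⁻¹⁻¹) * i⁻¹) * c⁻¹ := by group
  have e2 : c⁻¹ * x * c⁻¹⁻¹ = x := conj_eq_of_cmt h1.inv_left
  rw [e1, e2, hc]
  exact conj_eq_of_cmt h2

/-! ### Normalizing lines -/

theorem Nm_pt {r a a' : X} (ha : a ∈ R) (ha' : a' ∈ R) (hc : Commute a' a) (hr : Nm r a) : Nm r a' := by
  have h1 : Commute (r * a' * r⁻¹) (r * a * r⁻¹) := cmt_conj hc r
  have h2 := h.conj_mem a' ha' r
  have h3 := h.conj_mem a ha r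
  exact h.trans h2 ha ha' (h.trans h2 h3 ha h1 hr) hc.symm

theorem Nm_inv {r a : X} (ha : a ∈ R) (hr : Nm r a) : Nm r⁻¹ a := by
  have h1 : Commute (r⁻¹ * (r * a * r⁻¹) * r⁻¹⁻¹) (r⁻¹ * a * r⁻¹⁻¹) := cmt_conj hr r⁻¹
  have e : r⁻¹ * (r * a * r⁻¹) * r⁻¹⁻¹ = a := by group
  rw [e] at h1
  exact h1.symm

theorem Nm_mul {r s a : X} (ha : a ∈ R) (hr : Nm r a) (hs : Nm s a) : Nm (r * s) a := by
  unfold Nm
  rw [← conj_conj]
  have h1 := h.conj_mem a ha s
  have h2 : Nm r (s * a * s⁻¹) := h.Nm_pt ha h1 hs hr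
  exact h.trans (h.conj_mem _ h1 r) h1 ha h2 hs

theorem Nm_conj {r a : X} (hr : Nm r a) (g : X) : Nm (g * r * g⁻¹) (g * a * g⁻¹) := by
  unfold Nm
  have e : g * r * g⁻¹ * (g * a * g⁻¹) * (g * r * g⁻¹)⁻¹ = g * (r * a * r⁻¹) * g⁻¹ := by group
  rw [e]
  exact cmt_conj hr g

theorem moved {r a : X} (ha : a ∈ R) (h3 : r ^ 3 = 1) (h1 : r ≠ 1) : r * a * r⁻¹ ≠ a := by
  intro e
  have h2 := h.cent_sq a ha r (cmt_of_conj_eq e)
  apply h1
  calc r = r ^ 3 * (r ^ 2)⁻¹ := by group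
    _ = 1 := by rw [h3, h2]; simp

/-- The points of a line moved by an element of order three. -/
theorem order3 {r a : X} (ha : a ∈ R) (h3 : r ^ 3 = 1) (h1 : r ≠ 1) (hN : Nm r a) :
    r * a * r⁻¹ ≠ a ∧ r⁻¹ * a * r ≠ a ∧ r * a * r⁻¹ ≠ r⁻¹ * a * r ∧ a * (r * a * r⁻¹) = r⁻¹ * a * r ∧
      (r * a * r⁻¹) * (r⁻¹ * a * r) = a ∧
      ∀ x ∈ R, Commute x a → x = a ∨ x = r * a * r⁻¹ ∨ x = r⁻¹ * a * r := by
  have ha1 : r * a * r⁻¹ ∈ R := h.conj_mem a ha r
  have ha2 : r⁻¹ * a * r ∈ R := by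
    have := h.conj_mem a ha r⁻¹
    rwa [inv_inv] at this
  have hN' : Commute (r⁻¹ * a * r) a := by
    have := h.Nm_inv ha hN
    unfold Nm at this
    rwa [inv_inv] at this
  have n1 := h.moved ha h3 h1
  have n2 : r⁻¹ * a * r ≠ a := by
    have := h.moved (r := r⁻¹) ha (by rw [inv_pow, h3, inv_one]) (by simpa using h1)
    rwa [inv_inv] at this
  have n3 : r * a * r⁻¹ ≠ r⁻¹ * a * r := by
    intro e
    have e1 : (r * r) * a * (r * r)⁻¹ = a := by
      calc (r * r) * a * (r * r)⁻¹ = r * (r * a * r⁻¹) * r⁻¹ := by group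
        _ = r * (r⁻¹ * a * r) * r⁻¹ := by rw [e]
        _ = a := by group
    have e2 := h.cent_sq a ha _ (cmt_of_conj_eq e1)
    apply h1
    have e3 : r ^ 4 = 1 := by
      rw [← e2]
      simp only [pow_succ, pow_zero, one_mul, mul_assoc]
    calc r = r ^ 4 * (r ^ 3)⁻¹ := by group
      _ = 1 := by rw [h3, e3]; simp
  have ht := h.third ha ha1 ha2 hN hN' n1 n2 n3
  refine ⟨n1, n2, n3, ht.1, ?_, ?_⟩
  · rw [← ht.1, ← mul_assoc, hN.eq, mul_assoc, mm_of_sq (h.sq _ ha1), mul_one]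
  · intro x hx hxa
    exact h.line_cases ha ha1 ha2 hN hN' n1 n2 n3 hx hxa

/-- An involution normalizing a line fixes a point of it. -/
theorem fix_pt {t b : X} (hb : b ∈ R) (ht : t ^ 2 = 1) (hN : Nm t b) : ∃ c ∈ R, Commute c b ∧ Commute t c := by
  by_cases e : t * b * t⁻¹ = b
  · exact ⟨b, hb, Commute.refl b, cmt_of_conj_eq e⟩
  obtain ⟨p, q, hp, hq, hpb, hqb, h1, h2, h3⟩ := h.three hb
  have htb := h.conj_mem b hb t
  have hcases := h.line_cases hb hp hq hpb hqb h1 h2 h3 htb hN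
  have hti := inv_of_sq ht
  have htt := mm_of_sq ht
  have hback : t * (t * b * t⁻¹) * t⁻¹ = b := by
    rw [conj_conj, htt]; simp
  -- the third point is fixed
  have key : ∀ p' q' : X, p' ∈ R → q' ∈ R → Commute p' b → Commute q' b → p' ≠ b → q' ≠ b → p' ≠ q' →
      t * b * t⁻¹ = p' → Commute t q' := by
    intro p' q' hp' hq' hp'b hq'b h1' h2' h3' hte
    have hq1 : Nm t q' := h.Nm_pt hb hq' hq'b hN
    have hq2 := h.line_cases hb hp' hq' hp'b hq'b h1' h2' h3' (h.conj_mem q' hq' t)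
      (h.trans (h.conj_mem q' hq' t) hq' hb hq1 hq'b)
    rcases hq2 with e1 | e1 | e1
    · exfalso
      apply h2'
      have e2 : t * (t * q' * t⁻¹) * t⁻¹ = t * b * t⁻¹ := by rw [e1]
      rw [conj_conj, htt, hte] at e2
      simp only [one_mul, inv_one, mul_one] at e2
      exact absurd e2.symm h3'
    · exfalso
      rw [← hte] at e1
      exact h2' (conj_inj e1)
    · exact cmt_of_conj_eq e1
  rcases hcases with e1 | e1 | e1
  · exact absurd e1 e
  · exact ⟨q, hq, hqb, key p q hp hq hpb hqb h1 h2 h3 e1⟩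
  · exact ⟨p, hp, hpb, key q p hq hp hqb hpb h2 h1 h3.symm e1⟩

/-- A good element for two lines. -/
theorem exists_r {a b : X} (ha : a ∈ R) (hb : b ∈ R) (hn : ¬ Commute a b) :
    ∃ w w' b' : X, w ∈ R ∧ w' ∈ R ∧ b' ∈ R ∧ Commute b' b ∧ b' ≠ b ∧ w * a * w⁻¹ = b ∧ w' * a * w'⁻¹ = b' ∧
      (w * w') ^ 3 = 1 ∧ w * w' ≠ 1 ∧ Nm (w * w') a ∧ Nm (w * w') b := by
  obtain ⟨b', q, hb', hq, hb'b, hqb, h1, h2, h3⟩ := h.three hb
  have hn' : ¬ Commute a b' := fun e => hn (h.trans ha hb' hb e hb'b)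
  obtain ⟨w, hw, hwa⟩ := h.exists_mid ha hb hn
  obtain ⟨w', hw', hwa'⟩ := h.exists_mid ha hb' hn'
  have hwb := h.swap hw hwa
  have hwb' := h.swap hw' hwa'
  set r := w * w' with hr
  have ha1 : r * a * r⁻¹ = w * b' * w⁻¹ := by
    rw [hr, ← conj_conj, hwa']
  have hne : r * a * r⁻¹ ≠ a := by
    rw [ha1]
    intro e
    rw [← hwb] at e
    exact h1 (conj_inj e)
  have hNa : Nm r a := by
    unfold Nm
    rw [ha1]
    have := cmt_conj hb'b w
    rwa [hwb] at this
  have hNb : Nm r b := by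
    unfold Nm
    rw [hr, ← conj_conj]
    have h4 := cmt_conj hb'b.symm w'
    rw [hwb'] at h4
    have h5 := cmt_conj h4 w
    rwa [hwa] at h5
  have hr1 : r ≠ 1 := by
    rintro e
    apply hne
    rw [e]; simp
  have hncm : ¬ Commute w w' := by
    intro hcm
    have hrm : r ∈ V w := mul_mem (h.self_V hw) (h.mem_V' hw hw' hcm.symm)
    obtain ⟨hrR, -⟩ := h.of_V hw hrm hr1
    obtain ⟨c, hc, hca, hrc⟩ := h.fix_pt ha (h.sq r hrR) hNa
    exact hne (conj_eq_of_cmt (h.trans hrR hc ha hrc hca))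
  have hodd := h.odd_prod hw hw' hncm
  rw [← hr] at hodd
  have hcop : Nat.Coprime (orderOf r) 2 := Nat.coprime_two_right.mpr hodd
  have ha1R := h.conj_mem a ha r
  have hN1 : Nm r (r * a * r⁻¹) := h.Nm_pt ha ha1R hNa hNa
  have hr3 : r ^ 3 = 1 := by
    by_cases e1 : r * (r * a * r⁻¹) * r⁻¹ = a
    · exfalso
      rw [conj_conj] at e1
      have e2 := h.cent_sq a ha _ (cmt_of_conj_eq e1)
      have e3 : r ^ 4 = 1 := by
        rw [← e2]
        simp only [pow_succ, pow_zero, one_mul, mul_assoc]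
      have e4 : orderOf r ∣ 4 := orderOf_dvd_of_pow_eq_one e3
      have e5 : orderOf r ∣ 1 := by
        have hc4 : Nat.Coprime (orderOf r) 4 := by
          have := Nat.Coprime.pow_right 2 hcop
          simpa using this
        exact hc4.dvd_of_dvd_mul_right (by simpa using e4)
      apply hr1
      exact orderOf_eq_one_iff.mp (Nat.dvd_one.mp e5)
    have hb2R := h.conj_mem _ ha1R r
    have hb2 : Commute (r * (r * a * r⁻¹) * r⁻¹) a := h.trans hb2R ha1R ha hN1 hNa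
    have n1 : r * a * r⁻¹ ≠ r * (r * a * r⁻¹) * r⁻¹ := fun e => hne (conj_inj e).symm
    have hN2 : Nm r (r * (r * a * r⁻¹) * r⁻¹) := h.Nm_pt ha hb2R hb2 hNa
    have hcases := h.line_cases ha ha1R hb2R hNa hb2 hne e1 n1 (h.conj_mem _ hb2R r)
      (h.trans (h.conj_mem _ hb2R r) hb2R ha hN2 hb2)
    have e6 : r * (r * (r * a * r⁻¹) * r⁻¹) * r⁻¹ = a := by
      rcases hcases with e | e | e
      · exact e
      · exfalso
        exact e1 (conj_inj e)
      · exfalso
        exact n1 (conj_inj e).symm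
    rw [conj_conj, conj_conj] at e6
    have e7 := h.cent_sq a ha _ (cmt_of_conj_eq e6)
    have e8 : r ^ 6 = 1 := by
      rw [← e7]
      simp only [pow_succ, pow_zero, one_mul, mul_assoc]
    have e9 : orderOf r ∣ 3 * 2 := orderOf_dvd_of_pow_eq_one (by simpa using e8)
    exact orderOf_dvd_iff_pow_eq_one.mp (hcop.dvd_of_dvd_mul_right e9)
  exact ⟨w, w', b', hw, hw', hb', hb'b, h1, hwa, hwa', hr3, hr1, hNa, hNb⟩

/-- Two elements of order three acting the same way on one line agree. -/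
theorem r_same {a b w w' b' r : X} (ha : a ∈ R) (hb : b ∈ R) (hn : ¬ Commute a b) (hw : w ∈ R) (hw' : w' ∈ R)
    (hb' : b' ∈ R) (hb'b : Commute b' b) (hwa : w * a * w⁻¹ = b) (hwa' : w' * a * w'⁻¹ = b')
    (h03 : (w * w') ^ 3 = 1) (hN0b : Nm (w * w') b) (hr3 : r ^ 3 = 1) (hNb : Nm r b)
    (hact : r * a * r⁻¹ = (w * w') * a * (w * w')⁻¹) : r = w * w' := by
  set r₀ := w * w' with hr₀
  have hta : Commute (r₀⁻¹ * r) a := by
    apply cmt_of_conj_eq
    rw [← conj_conj, hact, conj_conj]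
    simp
  have ht2 := h.cent_sq a ha _ hta
  set t := r₀⁻¹ * r with ht
  have hNt : Nm t b := h.Nm_mul hb (h.Nm_inv hb hN0b) hNb
  obtain ⟨c, hc, hcb, htc⟩ := h.fix_pt hb ht2 hNt
  have hnc : ¬ Commute a c := fun e => hn (h.trans ha hc hb e hcb)
  obtain ⟨i, hi, hic⟩ := h.exists_mid ha hc hnc
  have hti := h.comm_of_mid ha hi hic hnc hta htc
  have hic' := h.swap hi hic
  have hall : ∀ y ∈ R, Commute y b → Commute t y := by
    intro y hy hyb
    have h1 : Commute y c := h.trans hy hb hc hyb hcb.symm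
    have h2 := cmt_conj h1 i
    rw [hic'] at h2
    have h3 := h.cent_eq a ha _ (h.conj_mem y hy i) h2 t hta
    have e : y = i⁻¹ * (i * y * i⁻¹) * i := by group
    rw [e]
    exact (hti.inv_right.mul_right h3).mul_right hti
  have htb := hall b hb (Commute.refl b)
  have htb' := hall b' hb' hb'b
  have hnb' : ¬ Commute a b' := fun e => hn (h.trans ha hb' hb e hb'b)
  have htw := h.comm_of_mid ha hw hwa hn hta htb
  have htw' := h.comm_of_mid ha hw' hwa' hnb' hta htb'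
  have htr : Commute t r₀ := htw.mul_right htw'
  have e1 : r = r₀ * t := by rw [ht]; group
  have e2 : t = 1 := by
    have e3 : (r₀ * t) ^ 3 = 1 := by rw [← e1]; exact hr3
    rw [htr.symm.mul_pow, h03, one_mul] at e3
    have e4 : t ^ 3 = t ^ 2 * t := by rw [pow_succ]
    rw [e4, ht2, one_mul] at e3
    exact e3
  rw [e1, e2, mul_one]

/-- Direction on a line. -/
theorem same_dir {a r₀ r : X} (ha : a ∈ R) (h03 : r₀ ^ 3 = 1) (h01 : r₀ ≠ 1) (hN0 : Nm r₀ a)
    (h3 : r ^ 3 = 1) (h1 : r ≠ 1) (hN : Nm r a) :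
    r * a * r⁻¹ = r₀ * a * r₀⁻¹ ∨ r⁻¹ * a * r⁻¹⁻¹ = r₀ * a * r₀⁻¹ := by
  obtain ⟨n1, n2, n3, -, -, hl⟩ := h.order3 ha h03 h01 hN0
  obtain ⟨m1, m2, m3, -, -, hl'⟩ := h.order3 ha h3 h1 hN
  rcases hl _ (h.conj_mem a ha r) hN with e | e | e
  · exact absurd e m1
  · exact Or.inl e
  · right
    rw [inv_inv]
    have hNi : Commute (r⁻¹ * a * r) a := by
      have := h.Nm_inv ha hN
      unfold Nm at this
      rwa [inv_inv] at this
    have hmem : r⁻¹ * a * r ∈ R := by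
      have := h.conj_mem a ha r⁻¹
      rwa [inv_inv] at this
    rcases hl _ hmem hNi with e' | e' | e'
    · exact absurd e' m2
    · exact e'
    · exact absurd (e.trans e'.symm) m3

/-- Elements of order three normalizing two lines are unique up to inversion. -/
theorem r_unique {a b w w' b' r : X} (ha : a ∈ R) (hb : b ∈ R) (hn : ¬ Commute a b) (hw : w ∈ R) (hw' : w' ∈ R)
    (hb' : b' ∈ R) (hb'b : Commute b' b) (hwa : w * a * w⁻¹ = b) (hwa' : w' * a * w'⁻¹ = b')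
    (h03 : (w * w') ^ 3 = 1) (h01 : w * w' ≠ 1) (hN0a : Nm (w * w') a) (hN0b : Nm (w * w') b)
    (hr3 : r ^ 3 = 1) (hr1 : r ≠ 1) (hNa : Nm r a) (hNb : Nm r b) : r = w * w' ∨ r = (w * w')⁻¹ := by
  rcases h.same_dir ha h03 h01 hN0a hr3 hr1 hNa with e | e
  · exact Or.inl (h.r_same ha hb hn hw hw' hb' hb'b hwa hwa' h03 hN0b hr3 hNb e)
  · right
    have := h.r_same (r := r⁻¹) ha hb hn hw hw' hb' hb'b hwa hwa' h03 hN0b (by rw [inv_pow, hr3, inv_one])
      (h.Nm_inv hb hNb) e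
    rw [← this, inv_inv]

/-- The involution swapping two lines inverts any element of order three normalizing both. -/
theorem inverted {p q r : X} (hp : p ∈ R) (hq : q ∈ R) (hn : ¬ Commute p q) (hr3 : r ^ 3 = 1) (hr1 : r ≠ 1)
    (hNp : Nm r p) (hNq : Nm r q) : ∃ w ∈ R, w * p * w⁻¹ = q ∧ w * r * w⁻¹ = r⁻¹ := by
  obtain ⟨w, w', b', hw, hw', hb', hb'b, h1, hwa, hwa', h03, h01, hN0a, hN0b⟩ := h.exists_r hp hq hn
  refine ⟨w, hw, hwa, ?_⟩
  have hww := mm_of_sq (h.sq w hw)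
  have hwi := inv_of_sq (h.sq w hw)
  have hw'i := inv_of_sq (h.sq w' hw')
  have e0 : w * (w * w') * w⁻¹ = (w * w')⁻¹ := by
    rw [mul_inv_rev, hwi, hw'i, ← mul_assoc, hww, one_mul]
  rcases h.r_unique hp hq hn hw hw' hb' hb'b hwa hwa' h03 h01 hN0a hN0b hr3 hr1 hNp hNq with e | e
  · rw [e, e0]
  · rw [e, inv_inv, mul_inv_rev, hwi, hw'i]
    calc w * (w' * w) * w = w * w' * (w * w) := by group
      _ = w * w' := by rw [hww, mul_one]

/-- An element of order three cannot normalize three pairwise disjoint lines. -/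
theorem three_lines {a b c r : X} (ha : a ∈ R) (hb : b ∈ R) (hc : c ∈ R) (hab : ¬ Commute a b) (hbc : ¬ Commute b c)
    (hca : ¬ Commute c a) (hr3 : r ^ 3 = 1) (hr1 : r ≠ 1) (hNa : Nm r a) (hNb : Nm r b) (hNc : Nm r c) : False := by
  obtain ⟨w₁, hw₁, h1a, h1r⟩ := h.inverted ha hb hab hr3 hr1 hNa hNb
  obtain ⟨w₂, hw₂, h2a, h2r⟩ := h.inverted hb hc hbc hr3 hr1 hNb hNc
  obtain ⟨w₃, hw₃, h3a, h3r⟩ := h.inverted hc ha hca hr3 hr1 hNc hNa
  set x := w₃ * w₂ * w₁ with hx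
  have hxa : Commute x a := by
    apply cmt_of_conj_eq
    rw [hx, ← conj_conj, ← conj_conj, h1a, h2a, h3a]
  have hxr : x * r * x⁻¹ = r⁻¹ := by
    have e2 : w₂ * r⁻¹ * w₂⁻¹ = r := by
      have : w₂ * r⁻¹ * w₂⁻¹ = (w₂ * r * w₂⁻¹)⁻¹ := by group
      rw [this, h2r, inv_inv]
    rw [hx, ← conj_conj, ← conj_conj, h1r, e2, h3r]
  obtain ⟨n1, n2, n3, -, -, hl⟩ := h.order3 ha hr3 hr1 hNa
  have h1 := h.cent_eq a ha _ (h.conj_mem a ha r) hNa x hxa
  have e1 := conj_eq_of_cmt h1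
  have e2 : x * (r * a * r⁻¹) * x⁻¹ = (x * r * x⁻¹) * (x * a * x⁻¹) * (x * r * x⁻¹)⁻¹ := by group
  rw [e2, hxr, conj_eq_of_cmt hxa, inv_inv] at e1
  exact n3 e1.symm

/-- The centralizer of a line splits. -/
theorem E_decomp {a r e : X} (ha : a ∈ R) (hr3 : r ^ 3 = 1) (hr1 : r ≠ 1) (hN : Nm r a) (he : Commute e a) :
    ∃ u ∈ V a, ∃ t : X, Commute t a ∧ Commute t r ∧ e = u * t := by
  classical
  set E : Subgroup X := centralizer ({a} : Set X) with hE
  have hmemE : ∀ x, x ∈ E ↔ Commute x a := by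
    intro x
    rw [hE, Subgroup.mem_centralizer_singleton_iff]
    exact Iff.rfl
  set T : Subgroup X := E ⊓ centralizer ({r} : Set X) with hT
  have hmemT : ∀ x, x ∈ T ↔ Commute x a ∧ Commute x r := by
    intro x
    rw [hT, Subgroup.mem_inf, hmemE, Subgroup.mem_centralizer_singleton_iff]
    exact Iff.rfl
  have hV_comm : ∀ x ∈ V a, ∀ t, Commute t a → Commute t x := by
    intro x hx t ht
    by_cases e1 : x = 1
    · rw [e1]; exact Commute.one_right t
    · obtain ⟨hxR, hxa⟩ := h.of_V ha hx e1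
      exact h.cent_eq a ha x hxR hxa t ht
  have hVE : V a ≤ E := by
    intro x hx
    rw [hmemE]
    exact (hV_comm x hx a (Commute.refl a)).symm
  have hTE : T ≤ E := inf_le_left
  have hn : ∀ b ∈ T, ∀ x ∈ V a, b * x * b⁻¹ ∈ V a := by
    intro b hb x hx
    rw [conj_eq_of_cmt (hV_comm x hx b ((hmemT b).1 hb).1)]
    exact hx
  have hinf : V a ⊓ T = ⊥ := by
    rw [eq_bot_iff]
    rintro x ⟨hx1, hx2⟩
    rw [mem_bot]
    by_contra e1
    obtain ⟨hxR, -⟩ := h.of_V ha hx1 e1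
    have h2 := h.cent_sq x hxR r ((hmemT x).1 hx2).2.symm
    apply hr1
    calc r = r ^ 3 * (r ^ 2)⁻¹ := by group
      _ = 1 := by rw [hr3, h2]; simp
  have hsup := Cfsg.Agent.Lib.HJOrder.Local.card_sup_of_inf hn hinf
  rw [h.card_V a ha] at hsup
  have hle : V a ⊔ T ≤ E := sup_le hVE hTE
  have hE16 : Nat.card E = 16 := h.card_C a ha
  have h16 : Nat.card ↥(V a ⊔ T) ≤ 16 := by
    rw [← hE16]
    exact Subgroup.card_le_of_le hle
  -- fixed points modulo three
  have hcj : ∀ x : ↥E, Commute (r * (x : X) * r⁻¹) a := by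
    intro x
    have h1 := cmt_conj ((hmemE x.1).1 x.2) r
    exact h.cent_eq _ (h.conj_mem a ha r) a ha hN.symm _ h1
  have hm3 := card_fix_three (α := ↥E) (fun x => ⟨r * x.1 * r⁻¹, (hmemE _).2 (hcj x)⟩) (fun x => by
    apply Subtype.ext
    change r * (r * (r * x.1 * r⁻¹) * r⁻¹) * r⁻¹ = x.1
    rw [conj_conj, conj_conj]
    have : r * r * r = 1 := by
      rw [← hr3]
      simp only [pow_succ, pow_zero, one_mul, mul_assoc]
    rw [this]
    simp)
  have hfix : Nat.card {x : ↥E // (⟨r * x.1 * r⁻¹, (hmemE _).2 (hcj x)⟩ : ↥E) = x} = Nat.card T := by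
    apply Nat.card_congr
    refine ⟨fun x => ⟨x.1.1, (hmemT _).2 ⟨(hmemE _).1 x.1.2, (cmt_of_conj_eq (congrArg Subtype.val x.2)).symm⟩⟩,
      fun x => ⟨⟨x.1, hTE x.2⟩, Subtype.ext (conj_eq_of_cmt ((hmemT _).1 x.2).2.symm)⟩, fun _ => rfl, fun _ => rfl⟩
  rw [hfix, hE16] at hm3
  have hv₀T : v₀ ∈ T := (hmemT _).2 ⟨(h.v₀_central a).symm, (h.v₀_central r).symm⟩
  have hT1 : Nat.card T ≠ 1 := by
    intro e1
    have e2 : T = ⊥ := (Subgroup.eq_bot_iff_card T).2 e1
    rw [e2, mem_bot] at hv₀T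
    exact h.v₀_ne hv₀T
  have hT0 : Nat.card T ≠ 0 := Nat.card_pos.ne'
  have hT4 : Nat.card T = 4 := by
    have h3 : Nat.card T ≤ 4 := by omega
    change 16 % 3 = Nat.card T % 3 at hm3
    interval_cases (Nat.card T) <;> omega
  rw [hT4] at hsup
  have heq : V a ⊔ T = E := Subgroup.eq_of_le_of_card_ge hle (by rw [hE16, hsup])
  have heE : e ∈ V a ⊔ T := by
    rw [heq, hmemE]; exact he
  obtain ⟨u, hu, t, ht, rfl⟩ := Cfsg.Agent.Lib.HJOrder.Local.exists_mul_of_sup hn heE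
  exact ⟨u, hu, t, ((hmemT t).1 ht).1, ((hmemT t).1 ht).2, rfl⟩

/-- Elements of order three acting alike on a line are conjugate under the line. -/
theorem conj_of_same {a r r' : X} (ha : a ∈ R) (hr3 : r ^ 3 = 1) (hr1 : r ≠ 1) (hN : Nm r a) (h3' : r' ^ 3 = 1)
    (hact : r' * a * r'⁻¹ = r * a * r⁻¹) : ∃ u₀ ∈ V a, u₀ * r * u₀⁻¹ = r' := by
  have hea : Commute (r⁻¹ * r') a := by
    apply cmt_of_conj_eq
    rw [← conj_conj, hact, conj_conj]
    simp
  obtain ⟨u, hu, t, hta, htr, he⟩ := h.E_decomp ha hr3 hr1 hN hea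
  have hr' : r' = r * u * t := by
    rw [mul_assoc, ← he]; group
  have hrr : r⁻¹ * r⁻¹ = r := by
    have : r * r * r = 1 := by
      rw [← hr3]
      simp only [pow_succ, pow_zero, one_mul, mul_assoc]
    calc r⁻¹ * r⁻¹ = (r * r * r) * r⁻¹ * r⁻¹ := by rw [this, one_mul]
      _ = r := by group
  have htu : Commute t u := by
    by_cases e1 : u = 1
    · rw [e1]; exact Commute.one_right t
    · obtain ⟨huR, hua⟩ := h.of_V ha hu e1
      exact h.cent_eq a ha u huR hua t hta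
  -- the cube of `r * u`
  have hcube : (r * u) ^ 3 = 1 ∧ ∃ u₀ ∈ V a, u₀ * r * u₀⁻¹ = r * u := by
    by_cases e1 : u = 1
    · rw [e1, mul_one]
      exact ⟨hr3, 1, one_mem _, by simp⟩
    obtain ⟨huR, hua⟩ := h.of_V ha hu e1
    have hNu : Nm r u := h.Nm_pt ha huR hua hN
    obtain ⟨-, -, -, -, hp, -⟩ := h.order3 huR hr3 hr1 hNu
    have hu2R : r⁻¹ * u * r ∈ R := by
      have := h.conj_mem u huR r⁻¹
      rwa [inv_inv] at this
    constructor
    · have e2 : (r * u) ^ 3 = (r * u * r⁻¹) * ((r * r) * u * (r * r)⁻¹) * (r * r * r) * u := by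
        simp only [pow_succ, pow_zero, one_mul]
        group
      have hrrr : r * r * r = 1 := by
        rw [← hr3]
        simp only [pow_succ, pow_zero, one_mul, mul_assoc]
      have hrr' : r * r = r⁻¹ := by
        calc r * r = (r * r * r) * r⁻¹ := by group
          _ = r⁻¹ := by rw [hrrr, one_mul]
      rw [e2, hrrr, mul_one, hrr', inv_inv, hp, mm_of_sq (h.sq u huR)]
    · refine ⟨r⁻¹ * u * r, ?_, ?_⟩
      · apply h.mem_V' ha hu2R
        have hNiu := h.Nm_inv huR hNu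
        unfold Nm at hNiu
        rw [inv_inv] at hNiu
        exact h.trans hu2R huR ha hNiu hua
      · have e3 : (r⁻¹ * u * r)⁻¹ = r⁻¹ * u * r := inv_of_sq (h.sq _ hu2R)
        rw [e3]
        have e4 : r⁻¹ * u * r * r * (r⁻¹ * u * r) = r * ((r⁻¹ * r⁻¹) * u * (r * r)) * (r⁻¹ * u * r) := by group
        rw [e4, hrr]
        have e5 : r * r = r⁻¹ := by
          calc r * r = (r⁻¹ * r⁻¹) * r := by rw [hrr]
            _ = r⁻¹ := by group
        rw [e5]
        have e6 : r * (r * u * r⁻¹) * (r⁻¹ * u * r) = r * ((r * u * r⁻¹) * (r⁻¹ * u * r)) := by group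
        rw [e6, hp]
  obtain ⟨hc3, u₀, hu₀, hu₀e⟩ := hcube
  have ht2 := h.cent_sq a ha t hta
  have hcm : Commute t (r * u) := htr.mul_right htu
  have ht1 : t = 1 := by
    have e3 : (r * u * t) ^ 3 = 1 := by rw [← hr']; exact h3'
    rw [hcm.symm.mul_pow, hc3, one_mul] at e3
    have e4 : t ^ 3 = t ^ 2 * t := by rw [pow_succ]
    rw [e4, ht2, one_mul] at e3
    exact e3
  refine ⟨u₀, hu₀, ?_⟩
  rw [hu₀e, hr', ht1, mul_one]

/-- Covering of the other lines. -/
theorem cover {a b c : X} (ha : a ∈ R) (hb : b ∈ R) (hc : c ∈ R) (hab : ¬ Commute a b) (hac : ¬ Commute a c) :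
    ∃ u ∈ V a, Commute c (u * b * u⁻¹) := by
  obtain ⟨w, w', b', hw, hw', hb', hb'b, h1, hwa, hwa', h03, h01, hN0a, hN0b⟩ := h.exists_r ha hb hab
  obtain ⟨y, y', c', hy, hy', hc', hc'c, h2, hya, hya', h13, h11, hN1a, hN1c⟩ := h.exists_r ha hc hac
  set r₁ := w * w' with hr₁
  set r₂ := y * y' with hr₂
  -- choose the direction of `r₂`
  have hex : ∃ r', r' ^ 3 = 1 ∧ r' ≠ 1 ∧ Nm r' c ∧ Nm r' a ∧ r' * a * r'⁻¹ = r₁ * a * r₁⁻¹ := by
    rcases h.same_dir ha h03 h01 hN0a h13 h11 hN1a with e | e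
    · exact ⟨r₂, h13, h11, hN1c, hN1a, e⟩
    · refine ⟨r₂⁻¹, by rw [inv_pow, h13, inv_one], by simpa using h11, h.Nm_inv hc hN1c, h.Nm_inv ha hN1a, e⟩
  obtain ⟨r', hr'3, hr'1, hr'c, hr'a, hact⟩ := hex
  obtain ⟨u, hu, hue⟩ := h.conj_of_same ha h03 h01 hN0a hr'3 hact
  refine ⟨u, hu, ?_⟩
  by_contra hnc
  have hua : u * a * u⁻¹ = a := by
    apply conj_eq_of_cmt
    by_cases e1 : u = 1
    · rw [e1]; exact Commute.one_left a
    · exact (h.of_V ha hu e1).2
  have hb₁ : u * b * u⁻¹ ∈ R := h.conj_mem b hb u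
  have hab₁ : ¬ Commute a (u * b * u⁻¹) := by
    intro e
    apply hab
    rw [← hua] at e
    exact cmt_unconj e
  have hNa : Nm r' a := hr'a
  have hNb₁ : Nm r' (u * b * u⁻¹) := by
    rw [← hue]
    exact h.Nm_conj hN0b u
  exact h.three_lines ha hb₁ hc hab₁ (fun e => hnc e.symm) (fun e => hac e.symm) hr'3 hr'1 hNa hNb₁ hr'c

/-- The count. -/
theorem card_of_noncomm {a b : X} (ha : a ∈ R) (hb : b ∈ R) (hab : ¬ Commute a b) : Nat.card {x // x ∈ R} = 15 := by
  have h1 := Cfsg.Agent.Lib.HJOrder.Tau.card_split (fun x : X => x ∈ R) (fun x => Commute x a)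
  rw [h.card_line ha] at h1
  have h2 : Nat.card {x // x ∈ R ∧ ¬ Commute x a} = Nat.card (↥(V a) × {y // y ∈ R ∧ Commute y b}) := by
    symm
    apply Nat.card_congr
    have hVc : ∀ u ∈ V a, Commute u a := by
      intro u hu
      by_cases e1 : u = 1
      · rw [e1]; exact Commute.one_left a
      · exact (h.of_V ha hu e1).2
    have key : ∀ u y : X, u ∈ V a → y ∈ R → Commute y b → ¬ Commute (u * y * u⁻¹) a := by
      intro u y hu hy hyb e
      have e1 := conj_eq_of_cmt (hVc _ hu)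
      rw [← e1] at e
      have e2 : Commute y a := cmt_unconj e
      exact hab (h.trans ha hy hb e2.symm hyb)
    refine Equiv.ofBijective (fun p => ⟨(p.1 : X) * p.2.1 * (p.1 : X)⁻¹, h.conj_mem _ p.2.2.1 _,
      key _ _ p.1.2 p.2.2.1 p.2.2.2⟩) ⟨?_, ?_⟩
    · rintro ⟨⟨u, hu⟩, ⟨y, hy, hyb⟩⟩ ⟨⟨u', hu'⟩, ⟨y', hy', hy'b⟩⟩ e
      have e1 : u * y * u⁻¹ = u' * y' * u'⁻¹ := congrArg Subtype.val e
      have e2 : (u'⁻¹ * u) * y * (u'⁻¹ * u)⁻¹ = y' := by
        calc (u'⁻¹ * u) * y * (u'⁻¹ * u)⁻¹ = u'⁻¹ * (u * y * u⁻¹) * u' := by group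
          _ = u'⁻¹ * (u' * y' * u'⁻¹) * u' := by rw [e1]
          _ = y' := by group
      have hem : u'⁻¹ * u ∈ V a := mul_mem (inv_mem hu') hu
      have he1 : u'⁻¹ * u = 1 := by
        by_contra hne
        obtain ⟨heR, hea⟩ := h.of_V ha hem hne
        have hyy' : Commute y' y := h.trans hy' hb hy hy'b hyb.symm
        have hN : Nm (u'⁻¹ * u) y := by
          unfold Nm
          rw [e2]
          exact hyy'
        obtain ⟨c, hc, hcy, hec⟩ := h.fix_pt hy (h.sq _ heR) hN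
        have h5 : Commute a (u'⁻¹ * u) := hea.symm
        have h6 : Commute a c := h.trans ha heR hc h5 hec
        exact hab (h.trans ha hc hb h6 (h.trans hc hy hb hcy hyb))
      have e3 : u = u' := by
        calc u = u' * (u'⁻¹ * u) := by group
          _ = u' := by rw [he1, mul_one]
      subst e3
      have e4 : y = y' := conj_inj e1
      subst e4
      rfl
    · rintro ⟨c, hc, hca⟩
      obtain ⟨u, hu, hcm⟩ := h.cover ha hb hc hab (fun e => hca e.symm)
      have e1 : Commute (u⁻¹ * c * u) b := by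
        have := cmt_conj hcm u⁻¹
        have e2 : u⁻¹ * (u * b * u⁻¹) * u⁻¹⁻¹ = b := by group
        rw [e2, inv_inv] at this
        exact this
      have hm : u⁻¹ * c * u ∈ R := by
        have := h.conj_mem c hc u⁻¹
        rwa [inv_inv] at this
      refine ⟨(⟨u, hu⟩, ⟨u⁻¹ * c * u, hm, e1⟩), ?_⟩
      apply Subtype.ext
      change u * (u⁻¹ * c * u) * u⁻¹ = c
      group
  rw [Nat.card_prod, h.card_V a ha, h.card_line hb] at h2
  omega

/-- Main dichotomy. -/
theorem card_dichotomy : (∀ a ∈ R, ∀ b ∈ R, Commute a b) ∨ Nat.card {x // x ∈ R} = 15 := by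
  by_cases hall : ∀ a ∈ R, ∀ b ∈ R, Commute a b
  · exact Or.inl hall
  · push Not at hall
    obtain ⟨a, ha, b, hb, hab⟩ := hall
    exact Or.inr (h.card_of_noncomm ha hb hab)


/-! ### Counting products of odd order -/

theorem not_R_mul {u : X} (hu : u ∈ R) : u * v₀ ∉ R := by
  intro hm
  have hc : Commute (u * v₀) u := (Commute.refl u).mul_left (h.v₀_central u).symm
  have h1 : u * (u * v₀) ∈ V u := mul_mem (h.self_V hu) (h.mem_V' hu hm hc)
  rw [← mul_assoc, mm_of_sq (h.sq u hu), one_mul] at h1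
  rcases (h.mem_V u hu v₀).1 h1 with e | e
  · exact h.v₀_ne e
  · exact h.v₀_notR e.1

theorem odd_iff {x a : X} (hx : x ∈ R) (ha : a ∈ R) : (Odd (orderOf (x * a)) ∧ a ≠ x) ↔ ¬ Commute a x := by
  constructor
  · rintro ⟨hodd, hne⟩ hc
    have hs : (x * a) ^ 2 = 1 := by
      rw [hc.symm.mul_pow, h.sq x hx, h.sq a ha, one_mul]
    have hne1 : x * a ≠ 1 := by
      intro e
      apply hne
      have := eq_inv_of_mul_eq_one_right e
      rw [this, inv_of_sq (h.sq x hx)]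
    rw [orderOf_eq_prime hs hne1] at hodd
    exact absurd hodd (by decide)
  · intro hn
    refine ⟨h.odd_prod hx ha (fun e => hn e.symm), ?_⟩
    rintro rfl
    exact hn (Commute.refl _)

theorem card_odd {x : X} (hx : x ∈ R) :
    Nat.card {x' : {x' // x' ∈ R} // Odd (orderOf (x * x'.1))} + 2 = Nat.card {x // x ∈ R} := by
  have h1 := Cfsg.Agent.Lib.HJOrder.Tau.card_split (fun y : X => y ∈ R) (fun y => Commute y x)
  rw [h.card_line hx] at h1
  have h2 : Nat.card {x' : {x' // x' ∈ R} // Odd (orderOf (x * x'.1))} = Nat.card {a // a ∈ R ∧ Odd (orderOf (x * a))} :=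
    Nat.card_congr (Equiv.subtypeSubtypeEquivSubtypeInter (fun y : X => y ∈ R) (fun a => Odd (orderOf (x * a))))
  have h3 := Cfsg.Agent.Lib.HJOrder.Tau.card_split (fun a : X => a ∈ R ∧ Odd (orderOf (x * a))) (fun a => a ≠ x)
  have h4 : Nat.card {a // (a ∈ R ∧ Odd (orderOf (x * a))) ∧ a ≠ x} = Nat.card {y // y ∈ R ∧ ¬ Commute y x} := by
    apply Nat.card_congr
    apply Equiv.subtypeEquivRight
    intro a
    constructor
    · rintro ⟨⟨h5, h6⟩, h7⟩
      exact ⟨h5, (h.odd_iff hx h5).1 ⟨h6, h7⟩⟩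
    · rintro ⟨h5, h6⟩
      have := (h.odd_iff hx h5).2 h6
      exact ⟨⟨h5, this.1⟩, this.2⟩
  have h5 : Nat.card {a // (a ∈ R ∧ Odd (orderOf (x * a))) ∧ ¬ a ≠ x} = 1 := by
    rw [Nat.card_eq_one_iff_unique]
    refine ⟨⟨?_⟩, ⟨⟨x, ⟨hx, ?_⟩, by simp⟩⟩⟩
    · rintro ⟨a, ha, ha'⟩ ⟨b, hb, hb'⟩
      apply Subtype.ext
      push Not at ha' hb'
      exact ha'.trans hb'.symm
    · rw [mm_of_sq (h.sq x hx), orderOf_one]
      exact odd_one
  rw [h2, h3, h4, h5]
  omega

end Geom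

end Cfsg.Agent.Lib.HJT.Geo
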