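import Cfsg.Agent.Lib.HJT.Geo

/-!
# The centralizer of the points in the geometry
-/

set_option autoImplicit false
set_option linter.unusedSectionVars false
set_option linter.unusedVariables false
set_option linter.style.longLine false

namespace Cfsg.Agent.Lib.HJT.Geo

open Subgroup

variable {X : Type*} [Group X]

namespace Geom

variable [Finite X] {R : Set X} {V : X → Subgroup X} {v₀ : X} (h : Geom R V v₀)
include h

theorem V_comm {a u g : X} (ha : a ∈ R) (hu : u ∈ V a) (hg : Commute g a) : Commute g u := by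
  by_cases e1 : u = 1
  · rw [e1]; exact Commute.one_right g
  · obtain ⟨huR, hua⟩ := h.of_V ha hu e1
    exact h.cent_eq a ha u huR hua g hg

/-- An element centralizing a point and normalizing a line away from it centralizes everything. -/
theorem comm_all {a b t : X} (ha : a ∈ R) (hb : b ∈ R) (hab : ¬ Commute a b) (hta : Commute t a) (hNb : Nm t b) :
    ∀ c ∈ R, Commute t c := by
  have ht2 := h.cent_sq a ha t hta
  obtain ⟨c₀, hc₀, hc₀b, htc₀⟩ := h.fix_pt hb ht2 hNb
  have hnc : ¬ Commute a c₀ := fun e => hab (h.trans ha hc₀ hb e hc₀b)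
  obtain ⟨i, hi, hic⟩ := h.exists_mid ha hc₀ hnc
  have hti := h.comm_of_mid ha hi hic hnc hta htc₀
  have hic' := h.swap hi hic
  have hall : ∀ y ∈ R, Commute y b → Commute t y := by
    intro y hy hyb
    have h1 : Commute y c₀ := h.trans hy hb hc₀ hyb hc₀b.symm
    have h2 := cmt_conj h1 i
    rw [hic'] at h2
    have h3 := h.cent_eq a ha _ (h.conj_mem y hy i) h2 t hta
    have e : y = i⁻¹ * (i * y * i⁻¹) * i := by group
    rw [e]
    exact (hti.inv_right.mul_right h3).mul_right hti
  intro c hc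
  by_cases hca : Commute c a
  · exact h.cent_eq a ha c hc hca t hta
  obtain ⟨u, hu, hcu⟩ := h.cover ha hb hc hab (fun e => hca e.symm)
  have hy : u⁻¹ * c * u ∈ R := by
    have := h.conj_mem c hc u⁻¹
    rwa [inv_inv] at this
  have hyb : Commute (u⁻¹ * c * u) b := by
    have := cmt_conj hcu u⁻¹
    have e2 : u⁻¹ * (u * b * u⁻¹) * u⁻¹⁻¹ = b := by group
    rw [e2, inv_inv] at this
    exact this
  have htu := h.V_comm ha hu hta
  have e : c = u * (u⁻¹ * c * u) * u⁻¹ := by group
  rw [e]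
  exact (htu.mul_right (hall _ hy hyb)).mul_right htu.inv_right

/-- The centralizer of the points. -/
def TT (R : Set X) : Subgroup X := centralizer R

omit h in
theorem mem_TT {t : X} : t ∈ TT R ↔ ∀ c ∈ R, Commute t c := by
  unfold TT
  rw [Subgroup.mem_centralizer_iff]
  exact ⟨fun hh c hc => (hh c hc).symm, fun hh c hc => (hh c hc).symm⟩

/-- Points and `T` are disjoint. -/
theorem inf_TT {a b : X} (ha : a ∈ R) (hb : b ∈ R) (hab : ¬ Commute a b) : V a ⊓ TT R = ⊥ := by
  rw [eq_bot_iff]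
  rintro x ⟨hx1, hx2⟩
  rw [mem_bot]
  by_contra e1
  obtain ⟨hxR, hxa⟩ := h.of_V ha hx1 e1
  have h1 := mem_TT.1 hx2 b hb
  exact hab (h.trans ha hxR hb hxa.symm h1)

/-- Decomposition of the centralizer of a point. -/
theorem E_split {a b e : X} (ha : a ∈ R) (hb : b ∈ R) (hab : ¬ Commute a b) (he : Commute e a) :
    ∃ u ∈ V a, ∃ t ∈ TT R, e = u * t := by
  obtain ⟨w, w', b', hw, hw', hb', hb'b, h1, hwa, hwa', h03, h01, hN0a, hN0b⟩ := h.exists_r ha hb hab
  obtain ⟨u, hu, t, hta, htr, rfl⟩ := h.E_decomp ha h03 h01 hN0a he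
  refine ⟨u, hu, t, ?_, rfl⟩
  rw [mem_TT]
  have hb₁ := h.conj_mem b hb t
  have hNb : Nm t b := by
    by_contra hn
    unfold Nm at hn
    have hN1 : Nm (w * w') (t * b * t⁻¹) := by
      have := h.Nm_conj hN0b t
      rwa [conj_eq_of_cmt htr] at this
    have hab₁ : ¬ Commute a (t * b * t⁻¹) := by
      intro e1
      apply hab
      rw [← conj_eq_of_cmt hta] at e1
      exact cmt_unconj e1
    exact h.three_lines ha hb₁ hb hab₁ hn (fun e1 => hab e1.symm) h03 h01 hN0a hN1 hN0b
  exact h.comm_all ha hb hab hta hNb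

/-- The order of `T`. -/
theorem card_TT {a b : X} (ha : a ∈ R) (hb : b ∈ R) (hab : ¬ Commute a b) : Nat.card (TT R) = 4 := by
  have hn : ∀ t ∈ TT R, ∀ x ∈ V a, t * x * t⁻¹ ∈ V a := by
    intro t ht x hx
    by_cases e1 : x = 1
    · rw [e1]; simp
    · obtain ⟨hxR, -⟩ := h.of_V ha hx e1
      rw [conj_eq_of_cmt (mem_TT.1 ht x hxR)]
      exact hx
  have h1 := Cfsg.Agent.Lib.HJOrder.Local.card_sup_of_inf hn (h.inf_TT ha hb hab)
  rw [h.card_V a ha] at h1
  have hE : V a ⊔ TT R = centralizer ({a} : Set X) := by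
    apply le_antisymm
    · apply sup_le
      · intro x hx
        rw [Subgroup.mem_centralizer_singleton_iff]
        by_cases e1 : x = 1
        · rw [e1]; simp
        · exact (h.of_V ha hx e1).2
      · intro x hx
        rw [Subgroup.mem_centralizer_singleton_iff]
        exact mem_TT.1 hx a ha
    · intro e he
      rw [Subgroup.mem_centralizer_singleton_iff] at he
      obtain ⟨u, hu, t, ht, rfl⟩ := h.E_split ha hb hab he
      exact mul_mem_sup hu ht
  rw [hE, h.card_C a ha] at h1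
  omega

/-- The element `a b a⁻¹` gives a third line. -/
theorem third_line {a b : X} (ha : a ∈ R) (hb : b ∈ R) (hab : ¬ Commute a b) :
    ¬ Commute a (a * b * a⁻¹) ∧ ¬ Commute (a * b * a⁻¹) b := by
  constructor
  · intro e
    apply hab
    have e1 : Commute (a * a * a⁻¹) (a * b * a⁻¹) := by
      have e2 : a * a * a⁻¹ = a := by group
      rw [e2]
      exact e
    exact cmt_unconj e1
  · intro e
    obtain ⟨c, hc, hcb, hac⟩ := h.fix_pt hb (h.sq a ha) e
    exact hab (h.trans ha hc hb hac hcb)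

/-- An element normalizing all the lines centralizes all the points. -/
theorem Nm_all {a b g : X} (ha : a ∈ R) (hb : b ∈ R) (hab : ¬ Commute a b) (hg : ∀ c ∈ R, Nm g c) : g ∈ TT R := by
  obtain ⟨w, w', b', hw, hw', hb', hb'b, h1, hwa, hwa', h03, h01, hN0a, hN0b⟩ := h.exists_r ha hb hab
  set r := w * w' with hr
  rw [mem_TT]
  by_cases hga : Commute g a
  · exact h.comm_all ha hb hab hga (hg b hb)
  exfalso
  obtain ⟨n1, n2, n3, -, -, hl⟩ := h.order3 ha h03 h01 hN0a
  have hcases := hl _ (h.conj_mem a ha g) (hg a ha)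
  have hex : ∃ r' : X, r' ^ 3 = 1 ∧ r' ≠ 1 ∧ Nm r' a ∧ Nm r' b ∧ r' * a * r'⁻¹ = g * a * g⁻¹ := by
    rcases hcases with e | e | e
    · exact absurd (cmt_of_conj_eq e) hga
    · exact ⟨r, h03, h01, hN0a, hN0b, e.symm⟩
    · refine ⟨r⁻¹, by rw [inv_pow, h03, inv_one], by simpa using h01, h.Nm_inv ha hN0a, h.Nm_inv hb hN0b, ?_⟩
      rw [inv_inv]
      exact e.symm
  obtain ⟨r', hr'3, hr'1, hr'a, hr'b, hact⟩ := hex
  have hta : Commute (r'⁻¹ * g) a := by
    apply cmt_of_conj_eq
    rw [← conj_conj, ← hact, conj_conj]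
    simp
  have hNt : Nm (r'⁻¹ * g) b := h.Nm_mul hb (h.Nm_inv hb hr'b) (hg b hb)
  have hT := h.comm_all ha hb hab hta hNt
  have hr'N : ∀ c ∈ R, Nm r' c := by
    intro c hc
    have e1 : r' * c * r'⁻¹ = g * c * g⁻¹ := by
      have e2 := conj_eq_of_cmt (hT c hc)
      calc r' * c * r'⁻¹ = r' * ((r'⁻¹ * g) * c * (r'⁻¹ * g)⁻¹) * r'⁻¹ := by rw [e2]
        _ = g * c * g⁻¹ := by group
    unfold Nm
    rw [e1]
    exact hg c hc
  have hc₃ := h.conj_mem b hb a
  obtain ⟨h3, h4⟩ := h.third_line ha hb hab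
  exact h.three_lines ha hb hc₃ hab (fun e => h4 e.symm) (fun e => h3 e.symm) hr'3 hr'1 hr'a hr'b (hr'N _ hc₃)

/-- Every element is a product of an element of the closure of the points and an element of the centralizer of `a`. -/
theorem decomp {a b x : X} (ha : a ∈ R) (hb : b ∈ R) (hab : ¬ Commute a b) :
    ∃ p ∈ closure R, ∃ e : X, Commute e a ∧ x = p * e := by
  have hc := h.conj_mem a ha x
  have key : ∀ p ∈ closure R, p * a * p⁻¹ = x * a * x⁻¹ → ∃ p ∈ closure R, ∃ e : X, Commute e a ∧ x = p * e := by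
    intro p hp hpa
    refine ⟨p, hp, p⁻¹ * x, ?_, by group⟩
    apply cmt_of_conj_eq
    rw [← conj_conj, ← hpa, conj_conj]
    simp
  by_cases hca : Commute a (x * a * x⁻¹)
  · by_cases e : x * a * x⁻¹ = a
    · exact key 1 (one_mem _) (by rw [e]; simp)
    · have hnb : ¬ Commute b (x * a * x⁻¹) := by
        intro e1
        exact hab (h.trans ha hc hb hca e1.symm)
      obtain ⟨i₁, hi₁, h1⟩ := h.exists_mid ha hb hab
      obtain ⟨i₂, hi₂, h2⟩ := h.exists_mid hb hc hnb
      refine key (i₂ * i₁) (mul_mem (subset_closure hi₂) (subset_closure hi₁)) ?_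
      rw [← conj_conj, h1, h2]
  · obtain ⟨i, hi, h1⟩ := h.exists_mid ha hc hca
    exact key i (subset_closure hi) h1

/-- `T` is central. -/
theorem T_central {a b t : X} (ha : a ∈ R) (hb : b ∈ R) (hab : ¬ Commute a b) (ht : t ∈ TT R) (x : X) : Commute x t := by
  obtain ⟨p, hp, e, hea, rfl⟩ := h.decomp (x := x) ha hb hab
  have h1 : Commute p t := by
    induction hp using closure_induction with
    | mem y hy => exact (mem_TT.1 ht y hy).symm
    | one => exact Commute.one_left t
    | mul y y' _ _ hy hy' => exact hy.mul_left hy'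
    | inv y _ hy => exact hy.inv_left
  have h2 : Commute e t := by
    have hta := mem_TT.1 ht a ha
    have e1 := h.cent_sq a ha e hea
    have e2 := h.cent_sq a ha t hta
    have e3 := h.cent_sq a ha (e * t) (hea.mul_left hta)
    have e4 := inv_eq_of_mul_eq_one_right (mm_of_sq e3)
    rw [mul_inv_rev, inv_of_sq e1, inv_of_sq e2] at e4
    exact e4.symm
  exact h1.mul_left h2

end Geom

end Cfsg.Agent.Lib.HJT.Geo
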