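import Cfsg.Agent.Lib.HJT.Str

/-!
# The local structure at a pair of commuting involutions and the geometry
-/

set_option autoImplicit false
set_option linter.unusedSectionVars false
set_option linter.unusedVariables false
set_option linter.style.longLine false

namespace Cfsg.Agent.Lib.HJT.Str

open Subgroup Cfsg.Agent.Lib.HJOrder.Basic
  Cfsg.Agent.Lib.HJOrder.Tau Cfsg.Agent.Lib.HJOrder.A5 Cfsg.Agent.Lib.HJOrder.Local
  Cfsg.Agent.Lib.Involutions.Thompson Cfsg.Agent.Lib.HJT.A5x Cfsg.Agent.Lib.HJT.Geo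
  Cfsg.Agent.Lib.HJT.Frame Cfsg.Agent.Lib.HJT.Str
open scoped commutatorElement

variable {G : Type*} [Group G] [Finite G]

/-- The structure at a commuting pair. -/
structure At (z u y : G) : Prop where
  sq : ∀ g, Commute g u → Commute g y → g ^ 2 = 1
  card : Nat.card {g : G // g * u = u * g ∧ g * y = y * g} = 16
  pts : ∃ p q, IsConj z p ∧ IsConj z q ∧ Commute p y ∧ Commute q y ∧ Commute p u ∧ Commute q u ∧ p ≠ u ∧ q ≠ u ∧ p ≠ q ∧
    u * p = q ∧ ∀ w, IsConj z w → Commute w y → Commute w u → w = u ∨ w = p ∨ w = q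

theorem cmt_conj_left {c g x : G} (h : Commute g (c * x * c⁻¹)) : Commute (c⁻¹ * g * c) x := by
  apply cmt_unconj (g := c)
  have e : c * (c⁻¹ * g * c) * c⁻¹ = g := by group
  rw [e]
  exact h

theorem At.conj {z u y : G} (h : At z u y) (c : G) : At z (c * u * c⁻¹) (c * y * c⁻¹) := by
  refine ⟨?_, ?_, ?_⟩
  · intro g h1 h2
    have h3 := h.sq _ (cmt_conj_left h1) (cmt_conj_left h2)
    have e : g = c * (c⁻¹ * g * c) * c⁻¹ := by group
    rw [e, conj_pow, h3]
    simp
  · rw [← h.card]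
    apply Nat.card_congr
    refine
      { toFun := fun g => ⟨c⁻¹ * g.1 * c, (cmt_conj_left g.2.1), (cmt_conj_left g.2.2)⟩
        invFun := fun g => ⟨c * g.1 * c⁻¹, cmt_conj g.2.1 c, cmt_conj g.2.2 c⟩
        left_inv := fun g => Subtype.ext (by group)
        right_inv := fun g => Subtype.ext (by group) }
  · obtain ⟨p, q, h1, h2, h3, h4, h5, h6, h7, h8, h9, h10, h11⟩ := h.pts
    refine ⟨c * p * c⁻¹, c * q * c⁻¹, h1.trans (isConj_of c p), h2.trans (isConj_of c q), cmt_conj h3 c, cmt_conj h4 c,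
      cmt_conj h5 c, cmt_conj h6 c, fun e => h7 (conj_inj e), fun e => h8 (conj_inj e), fun e => h9 (conj_inj e), ?_, ?_⟩
    · rw [← h10]; group
    · intro w hw hwy hwu
      have hw' : IsConj z (c⁻¹ * w * c) := by
        have := isConj_of c⁻¹ w
        rw [inv_inv] at this
        exact hw.trans this
      have e : w = c * (c⁻¹ * w * c) * c⁻¹ := by group
      rcases h11 _ hw' (cmt_conj_left hwy) (cmt_conj_left hwu) with e1 | e1 | e1
      · left; rw [e, e1]
      · right; left; rw [e, e1]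
      · right; right; rw [e, e1]

namespace HT

variable {z v₀ : G} {Q : Subgroup G} {π : ↥(CC z) →* AFive} (h : HT z v₀ Q π)
include h

theorem la {u y b : G} (hu : IsConj z u) (hy : IsConj v₀ y) (huy : Commute u y) (hbu : Commute b u)
    (hby : Commute b y) : b ^ 2 ≠ u := by
  obtain ⟨c, rfl⟩ := isConj_iff.1 hu
  have hy' : Commute (c⁻¹ * y * c) z := (cmt_conj_left huy.symm)
  have hb' : Commute (c⁻¹ * b * c) z := cmt_conj_left hbu
  have hby' : Commute (c⁻¹ * b * c) (c⁻¹ * y * c) := by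
    have := cmt_conj hby c⁻¹
    rwa [inv_inv] at this
  have hyc : IsConj v₀ (c⁻¹ * y * c) := by
    have := isConj_of c⁻¹ y
    rw [inv_inv] at this
    exact hy.trans this
  obtain ⟨hy2, hyQ⟩ := h.D'_I hyc
  have := (h.s.lemma_A hy' hy2 hyQ hb' hby').2.1
  intro e
  apply this
  have e2 : (c⁻¹ * b * c) ^ 2 = c⁻¹ * b ^ 2 * c⁻¹⁻¹ := by
    have := conj_pow (a := c⁻¹) (i := 2) (b := b)
    rw [inv_inv] at this ⊢
    exact this
  rw [e2, e]
  group

/-- The structure at `(z, v)`. -/
theorem at_z {v : G} (hvz : v * z = z * v) (hv : IsConj v₀ v) : At z z v := by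
  obtain ⟨hv2, hvQ⟩ := h.D'_I hv
  have hzv : Commute z v := (show Commute v z from hvz).symm
  refine ⟨?_, h.card_E hvz hv2 hvQ, ?_⟩
  · intro b hbz hbv
    obtain ⟨h1, h2, h3⟩ := h.s.lemma_A hvz hv2 hvQ hbz hbv
    by_contra hne
    have hsQ := (mem_VV.1 h3).1
    have hsv := (mem_VV.1 h3).2
    have hs2 := h.s.fix_sq hvz hv2 hvQ hsQ hsv.symm
    have hD := h.hD _ hsQ hs2 hne
    exact h.la hD hv hsv (h1 _ h3) hbv rfl
  · classical
    have hex : ∃ s ∈ VV Q v, s ≠ 1 ∧ s ≠ z := by
      by_contra hn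
      push Not at hn
      have h1 : Nat.card (VV Q v) ≤ ({1, z} : Finset G).card := by
        apply card_le_of_mem
        intro x hx
        simp only [Finset.mem_insert, Finset.mem_singleton]
        by_cases e : x = 1
        · exact Or.inl e
        · exact Or.inr (hn x hx e)
      have h2 : ({1, z} : Finset G).card ≤ 2 := Finset.card_le_two
      rw [h.s.VV_card hvz hv2 hvQ] at h1
      omega
    obtain ⟨s, hs, hs1, hsz⟩ := hex
    have hsQ := (mem_VV.1 hs).1
    have hsv := (mem_VV.1 hs).2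
    have hs2 := h.s.fix_sq hvz hv2 hvQ hsQ hsv.symm
    have hsc : Commute s z := h.s.q.central s hsQ
    have hzz := mm_of_sq h.s.q.z_sq
    have hq : z * s ∈ VV Q v := mul_mem (h.s.z_mem_VV hvz) hs
    have hq1 : z * s ≠ 1 := by
      intro e
      apply hsz
      have := eq_inv_of_mul_eq_one_right e
      rw [this, inv_of_sq h.s.q.z_sq]
    have hqQ := (mem_VV.1 hq).1
    have hq2 : (z * s) ^ 2 = 1 := h.s.fix_sq hvz hv2 hvQ hqQ (mem_VV.1 hq).2.symm
    refine ⟨s, z * s, h.hD s hsQ hs2 hs1, h.hD _ hqQ hq2 hq1, hsv, (mem_VV.1 hq).2, hsc,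
      (Commute.refl z).mul_left hsc, hsz, ?_, ?_, rfl, ?_⟩
    · intro e
      apply hs1
      exact mul_left_cancel (a := z) (by rw [e, mul_one])
    · intro e
      apply h.z1
      exact mul_right_cancel (b := s) (by rw [← e, one_mul])
    · intro w hw hwv hwz
      have hwQ := h.D_Q hwz hw
      have hwV : w ∈ VV Q v := mem_VV.2 ⟨hwQ, hwv⟩
      rcases h.s.VV_cases hvz hv2 hvQ hs hs1 hsz hwV with e | e | e | e
      · exact absurd e (conj_ne hw h.z1)
      · exact Or.inl e
      · exact Or.inr (Or.inl e)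
      · right; right; rw [e, hsc.eq]

/-- The structure at all commuting pairs. -/
theorem at_all {u y : G} (hu : IsConj z u) (hy : IsConj v₀ y) (huy : Commute u y) : At z u y := by
  obtain ⟨c, rfl⟩ := isConj_iff.1 hu
  have hy' : Commute (c⁻¹ * y * c) z := (cmt_conj_left huy.symm)
  have hyc : IsConj v₀ (c⁻¹ * y * c) := by
    have := isConj_of c⁻¹ y
    rw [inv_inv] at this
    exact hy.trans this
  have := (h.at_z hy' hyc).conj c
  have e : c * (c⁻¹ * y * c) * c⁻¹ = y := by group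
  rwa [e] at this

/-- Commuting inside the centralizer of a pair. -/
theorem cent_trans {u w g y : G} (hu : IsConj z u) (hw : IsConj z w) (hy : IsConj v₀ y) (huy : Commute u y) (hwy : Commute w y)
    (hwu : Commute w u) (hgu : Commute g u) (hgy : Commute g y) : Commute g w := by
  have ha := h.at_all hu hy huy
  have h1 := ha.sq g hgu hgy
  have h2 := ha.sq w hwu hwy
  have h3 := ha.sq (g * w) (hgu.mul_left hwu) (hgy.mul_left hwy)
  have e1 := mm_of_sq h3
  have e2 := inv_of_sq h1
  have e3 := inv_of_sq h2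
  have e4 := inv_eq_of_mul_eq_one_right e1
  rw [mul_inv_rev, e2, e3] at e4
  exact e4.symm

end HT

/-! ### The geometry inside `C(v₀)` -/

/-- The points. -/
def RR (z v₀ : G) : Set ↥(CC v₀) := {x | IsConj z (x : G)}

/-- The lines. -/
def VG (z v₀ : G) (u : ↥(CC v₀)) : Subgroup ↥(CC v₀) := closure {w | w ∈ RR z v₀ ∧ Commute w u}

theorem cmt_coe {H : Subgroup G} {x y : ↥H} : Commute x y ↔ Commute (x : G) (y : G) :=
  ⟨fun h => congrArg Subtype.val h, fun h => Subtype.ext h⟩

theorem cX {v₀ : G} (x : ↥(CC v₀)) : Commute (x : G) v₀ := memC.1 x.2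

namespace HT

variable {z v₀ : G} {Q : Subgroup G} {π : ↥(CC z) →* AFive} (h : HT z v₀ Q π)
include h

theorem prod_D {a b : G} (ha : IsConj z a) (hb : IsConj z b) (hav : Commute a v₀) (hbv : Commute b v₀) (hba : Commute b a)
    (hne : b ≠ a) : IsConj z (a * b) := by
  obtain ⟨p, q, hp, hq, -, -, -, -, h1, h2, h3, h4, h5⟩ := (h.at_all ha (IsConj.refl v₀) hav).pts
  rcases h5 b hb hbv hba with e | e | e
  · exact absurd e hne
  · rw [e, h4]; exact hq
  · rw [e, ← h4, ← mul_assoc, mm_of_sq (conj_sq ha h.z2), one_mul]; exact hp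

theorem mem_VG {u : ↥(CC v₀)} (hu : u ∈ RR z v₀) (x : ↥(CC v₀)) :
    x ∈ VG z v₀ u ↔ x = 1 ∨ (x ∈ RR z v₀ ∧ Commute x u) := by
  constructor
  · intro hx
    induction hx using closure_induction with
    | mem x hx => exact Or.inr hx
    | one => exact Or.inl rfl
    | mul a b _ _ iha ihb =>
      rcases iha with rfl | ⟨ha, hau⟩
      · rw [one_mul]; exact ihb
      rcases ihb with rfl | ⟨hb, hbu⟩
      · rw [mul_one]; exact Or.inr ⟨ha, hau⟩
      by_cases e : b = a
      · left
        subst e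
        exact Subtype.ext (mm_of_sq (conj_sq ha h.z2))
      · right
        have hba : Commute (b : G) (a : G) :=
          h.cent_trans hu ha (IsConj.refl v₀) (cX u) (cX a) (cmt_coe.1 hau) (cmt_coe.1 hbu) (cX b)
        refine ⟨h.prod_D ha hb (cX a) (cX b) hba (fun e' => e (Subtype.ext e')), hau.mul_left hbu⟩
    | inv a _ iha =>
      rcases iha with rfl | ⟨ha, hau⟩
      · left; simp
      · right
        have : a⁻¹ = a := Subtype.ext (inv_of_sq (conj_sq ha h.z2))
        rw [this]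
        exact ⟨ha, hau⟩
  · rintro (rfl | hx)
    · exact one_mem _
    · exact subset_closure hx

theorem card_VG {u : ↥(CC v₀)} (hu : u ∈ RR z v₀) : Nat.card (VG z v₀ u) = 4 := by
  classical
  obtain ⟨p, q, hp, hq, hpv, hqv, hpu, hqu, h1, h2, h3, h4, h5⟩ := (h.at_all hu (IsConj.refl v₀) (cX u)).pts
  set p' : ↥(CC v₀) := ⟨p, memC.2 hpv⟩ with hp'
  set q' : ↥(CC v₀) := ⟨q, memC.2 hqv⟩ with hq'
  have hz1 := h.z1
  have hpv1 : p' ≠ 1 := fun e => conj_ne hp hz1 (congrArg Subtype.val e)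
  have hqv1 : q' ≠ 1 := fun e => conj_ne hq hz1 (congrArg Subtype.val e)
  have huv1 : u ≠ 1 := fun e => conj_ne hu hz1 (congrArg Subtype.val e)
  have e : ((VG z v₀ u : Subgroup ↥(CC v₀)) : Set ↥(CC v₀)) = (({1, u, p', q'} : Finset ↥(CC v₀)) : Set ↥(CC v₀)) := by
    ext x
    simp only [SetLike.mem_coe, Finset.coe_insert, Finset.coe_singleton, Set.mem_insert_iff, Set.mem_singleton_iff]
    rw [h.mem_VG hu]
    constructor
    · rintro (rfl | ⟨hx, hxu⟩)
      · exact Or.inl rfl
      · right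
        rcases h5 x hx (cX x) (cmt_coe.1 hxu) with e | e | e
        · exact Or.inl (Subtype.ext e)
        · exact Or.inr (Or.inl (Subtype.ext e))
        · exact Or.inr (Or.inr (Subtype.ext e))
    · rintro (rfl | rfl | rfl | rfl)
      · exact Or.inl rfl
      · exact Or.inr ⟨hu, Commute.refl _⟩
      · exact Or.inr ⟨hp, cmt_coe.2 hpu⟩
      · exact Or.inr ⟨hq, cmt_coe.2 hqu⟩
  have e1 : Nat.card (VG z v₀ u) = (((VG z v₀ u : Subgroup ↥(CC v₀)) : Set ↥(CC v₀))).ncard := Nat.card_coe_set_eq _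
  rw [e1, e, Set.ncard_coe_finset, Finset.card_insert_of_notMem, Finset.card_insert_of_notMem, Finset.card_insert_of_notMem,
    Finset.card_singleton]
  · simp only [Finset.mem_singleton]
    exact fun e' => h3 (congrArg Subtype.val e')
  · simp only [Finset.mem_insert, Finset.mem_singleton, not_or]
    exact ⟨fun e' => h1 (congrArg Subtype.val e').symm, fun e' => h2 (congrArg Subtype.val e').symm⟩
  · simp only [Finset.mem_insert, Finset.mem_singleton, not_or]
    exact ⟨huv1.symm, hpv1.symm, hqv1.symm⟩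

theorem v₀_ne : v₀ ≠ 1 := by
  rintro rfl
  exact h.vQ (one_mem _)

/-- The geometry. -/
theorem geom : Geom (RR z v₀) (VG z v₀) ⟨v₀, memC.2 rfl⟩ where
  sq u hu := Subtype.ext (conj_sq hu h.z2)
  one_notR := fun e => conj_ne e h.z1 rfl
  conj_mem u hu g := hu.trans (isConj_of (g : G) (u : G))
  mem_V u hu x := h.mem_VG hu x
  card_V u hu := h.card_VG hu
  cent_eq u hu w hw hwu g hgu := cmt_coe.2 (h.cent_trans hu hw (IsConj.refl v₀) (cX u) (cX w) (cmt_coe.1 hwu) (cmt_coe.1 hgu) (cX g))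
  cent_sq u hu g hgu := Subtype.ext ((h.at_all hu (IsConj.refl v₀) (cX u)).sq _ (cmt_coe.1 hgu) (cX g))
  card_C u hu := by
    rw [← (h.at_all hu (IsConj.refl v₀) (cX u)).card]
    apply Nat.card_congr
    refine
      { toFun := fun g => ⟨g.1.1, congrArg Subtype.val (Subgroup.mem_centralizer_singleton_iff.1 g.2), memC.1 g.1.2⟩
        invFun := fun g => ⟨⟨g.1, memC.2 g.2.2⟩, Subgroup.mem_centralizer_singleton_iff.2 (Subtype.ext g.2.1)⟩
        left_inv := fun _ => rfl
        right_inv := fun _ => rfl }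
  v₀_central g := cmt_coe.2 (cX g)
  v₀_ne := fun e => h.v₀_ne (congrArg Subtype.val e)
  v₀_notR := h.nc

theorem z_mem : (⟨z, memC.2 (show Commute z v₀ from (show Commute v₀ z from h.vz).symm)⟩ : ↥(CC v₀)) ∈ RR z v₀ := IsConj.refl z

/-- The number of points is three or fifteen. -/
theorem card_R : Nat.card {x // x ∈ RR z v₀} = 3 ∨ Nat.card {x // x ∈ RR z v₀} = 15 := by
  rcases h.geom.card_dichotomy with hall | h15
  · left
    have hz := h.z_mem
    rw [← h.geom.card_line hz]
    apply Nat.card_congr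
    exact Equiv.subtypeEquivRight (fun x => ⟨fun hx => ⟨hx, hall _ hx _ hz⟩, fun hx => hx.1⟩)
  · exact Or.inr h15

/-- The order of `C(v₀)`. -/
theorem card_X : Nat.card (CC v₀) = Nat.card {x // x ∈ RR z v₀} * 16 := by
  have hz := h.z_mem
  set z' : ↥(CC v₀) := ⟨z, memC.2 (show Commute z v₀ from (show Commute v₀ z from h.vz).symm)⟩ with hz'
  let φ : ↥(CC v₀) → {x // x ∈ RR z v₀} := fun g => ⟨g * z' * g⁻¹, h.geom.conj_mem z' hz g⟩
  have hr : Set.range φ = Set.univ := by
    rw [Set.eq_univ_iff_forall]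
    rintro ⟨x, hx⟩
    obtain ⟨g, hg⟩ := isConj_iff.1 hx
    -- move `v₀` back
    have hv' : Commute (g⁻¹ * v₀ * g) z := by
      have h1 : Commute (x : G) v₀ := cX x
      rw [← hg] at h1
      exact (cmt_conj_left h1.symm)
    have hvc : IsConj v₀ (g⁻¹ * v₀ * g) := by
      have := isConj_of g⁻¹ v₀
      rwa [inv_inv] at this
    obtain ⟨hv2, hvQ⟩ := h.D'_I hvc
    obtain ⟨c, hcz, hc⟩ := h.conj_v hv' hv2 hvQ
    have hk : Commute (g * c) v₀ := by
      apply cmt_of_conj_eq
      rw [← conj_conj, hc]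
      group
    refine ⟨⟨g * c, memC.2 hk⟩, ?_⟩
    apply Subtype.ext
    apply Subtype.ext
    change (g * c) * z * (g * c)⁻¹ = x
    rw [← conj_conj, conj_eq_of_cmt (show Commute c z from hcz), hg]
  have h1 := card_orbit (centralizer ({z'} : Set ↥(CC v₀))) φ (by
    intro a b
    rw [Subgroup.mem_centralizer_singleton_iff]
    constructor
    · intro e
      have e1 : a * z' * a⁻¹ = b * z' * b⁻¹ := congrArg Subtype.val e
      calc a⁻¹ * b * z' = a⁻¹ * (b * z' * b⁻¹) * b := by group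
        _ = a⁻¹ * (a * z' * a⁻¹) * b := by rw [e1]
        _ = z' * (a⁻¹ * b) := by group
    · intro e
      apply Subtype.ext
      calc a * z' * a⁻¹ = a * (z' * (a⁻¹ * b)) * b⁻¹ := by group
        _ = a * (a⁻¹ * b * z') * b⁻¹ := by rw [e]
        _ = b * z' * b⁻¹ := by group)
  rw [hr, Nat.card_congr (Equiv.Set.univ _), h.geom.card_C z' hz] at h1
  exact h1

end HT

namespace HT

variable {z v₀ : G} {Q : Subgroup G} {π : ↥(CC z) →* AFive} (h : HT z v₀ Q π)
include h

theorem pair_v_forward {x x' : ↥(CC v₀)} (hx : x ∈ RR z v₀) (hx' : x' ∈ RR z v₀) (hodd : Odd (orderOf (x * x'))) :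
    IsConj z (x : G) ∧ IsConj v₀ ((x' : G) * v₀) ∧ v₀ ∈ zpowers ((x : G) * ((x' : G) * v₀)) := by
  refine ⟨hx, ?_, ?_⟩
  · have hG := h.geom
    have hx'2 : (x' : G) ^ 2 = 1 := conj_sq hx' h.z2
    have ht2 : ((x' : G) * v₀) ^ 2 = 1 := by rw [(cX x').mul_pow, hx'2, h.v2, one_mul]
    have ht1 : (x' : G) * v₀ ≠ 1 := by
      intro e
      have e1 : (x' : G) = v₀ := by
        have := eq_inv_of_mul_eq_one_left e
        rwa [inv_of_sq h.v2] at this
      apply h.nc
      rw [← e1]
      exact hx'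
    rcases h.all_two ht2 ht1 with e | e
    · exact absurd e (hG.not_R_mul hx')
    · exact e
  · obtain ⟨m, hm⟩ := hodd
    have e1 : (x * x') ^ orderOf (x * x') = 1 := pow_orderOf_eq_one _
    have e2 : ((x : G) * (x' : G)) ^ orderOf (x * x') = 1 := congrArg Subtype.val e1
    have hc : Commute ((x : G) * (x' : G)) v₀ := (cX x).mul_left (cX x')
    refine ⟨(orderOf (x * x') : ℤ), ?_⟩
    simp only
    rw [zpow_natCast, ← mul_assoc, hc.mul_pow, e2, one_mul, hm, pow_succ, pow_mul, h.v2, one_pow, one_mul]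

theorem pair_v_back {x y : G} (hx : IsConj z x) (hy : IsConj v₀ y) (hm : v₀ ∈ zpowers (x * y)) :
    ∃ (hxv : Commute x v₀) (hyv : Commute y v₀),
      (⟨y * v₀, memC.2 (hyv.mul_left (Commute.refl v₀))⟩ : ↥(CC v₀)) ∈ RR z v₀ ∧
      Odd (orderOf ((⟨x, memC.2 hxv⟩ : ↥(CC v₀)) * ⟨y * v₀, memC.2 (hyv.mul_left (Commute.refl v₀))⟩)) := by
  have hx2 := conj_sq hx h.z2
  have hy2 := conj_sq hy h.v2
  obtain ⟨e1, e2⟩ := conj_of_mem_zpowers hx2 hy2 hm h.v2
  have hxv : Commute x v₀ := e1
  have hyv : Commute y v₀ := e2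
  refine ⟨hxv, hyv, ?_⟩
  set xh : ↥(CC v₀) := ⟨x, memC.2 hxv⟩ with hxh
  set yh : ↥(CC v₀) := ⟨y, memC.2 hyv⟩ with hyh
  set vh : ↥(CC v₀) := ⟨v₀, memC.2 rfl⟩ with hvh
  have hyhv : (⟨y * v₀, memC.2 (hyv.mul_left (Commute.refl v₀))⟩ : ↥(CC v₀)) = yh * vh := rfl
  rw [hyhv]
  have hG := h.geom
  have hmem : vh ∈ zpowers (xh * yh) := by
    obtain ⟨k, hk⟩ := Subgroup.mem_zpowers_iff.mp hm
    refine Subgroup.mem_zpowers_iff.mpr ⟨k, Subtype.ext ?_⟩
    exact hk
  have hvh2 : vh ^ 2 = 1 := Subtype.ext h.v2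
  have hvh1 : vh ≠ 1 := fun e => h.v₀_ne (congrArg Subtype.val e)
  have hord : orderOf vh = 2 := orderOf_eq_prime hvh2 hvh1
  have heven : Even (orderOf (xh * yh)) := by
    have := orderOf_dvd_of_mem_zpowers hmem
    rw [hord] at this
    exact even_iff_two_dvd.mpr this
  have hcen := eq_central_of_mem_zpowers heven hmem hord
  have hodd := odd_mul_central (hG.no_four h.z_mem) heven
  rw [← hcen, mul_assoc] at hodd
  have hxh2 : xh ^ 2 = 1 := Subtype.ext hx2
  have hyv2 : (yh * vh) ^ 2 = 1 := by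
    have : Commute yh vh := hG.v₀_central yh
    rw [this.mul_pow]
    have hyh2 : yh ^ 2 = 1 := Subtype.ext hy2
    rw [hyh2, hvh2, one_mul]
  obtain ⟨i, -, hi, -⟩ := Cfsg.Agent.Lib.StrongEmb.Basic.exists_midpoint hxh2 hyv2 hodd
  refine ⟨?_, hodd⟩
  have hxhR : xh ∈ RR z v₀ := hx
  have := hG.conj_mem xh hxhR i
  rwa [hi] at this

/-- The second count in the Thompson formula. -/
theorem card_pairs_v : Nat.card (PairsOver z v₀ v₀) =
    Nat.card {x // x ∈ RR z v₀} * (Nat.card {x // x ∈ RR z v₀} - 2) := by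
  have hG := h.geom
  let R := {x // x ∈ RR z v₀}
  have h1 := card_sigma_const (fun x : R => {x' : R // Odd (orderOf (x.1 * x'.1))}) (Nat.card R - 2) (fun x => by
    exact Nat.eq_sub_of_add_eq (hG.card_odd x.2))
  change _ = Nat.card R * (Nat.card R - 2)
  rw [← h1]
  symm
  apply Nat.card_congr
  refine Equiv.ofBijective (fun p => ⟨((p.1.1 : G), (p.2.1.1 : G) * v₀), h.pair_v_forward p.1.2 p.2.1.2 p.2.2⟩) ⟨?_, ?_⟩
  · rintro ⟨⟨x, hx⟩, ⟨⟨x', hx'⟩, hodd⟩⟩ ⟨⟨a, ha⟩, ⟨⟨a', ha'⟩, hodd'⟩⟩ e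
    have e1 : ((x : G), (x' : G) * v₀) = ((a : G), (a' : G) * v₀) := congrArg Subtype.val e
    obtain ⟨e2, e3⟩ := Prod.mk.inj e1
    have e4 : x = a := Subtype.ext e2
    have e5 : x' = a' := Subtype.ext (mul_right_cancel e3)
    subst e4
    subst e5
    rfl
  · rintro ⟨⟨x, y⟩, hx, hy, hm⟩
    obtain ⟨hxv, hyv, hR, hodd⟩ := h.pair_v_back hx hy hm
    refine ⟨⟨⟨⟨x, memC.2 hxv⟩, hx⟩, ⟨⟨⟨y * v₀, memC.2 (hyv.mul_left (Commute.refl v₀))⟩, hR⟩, hodd⟩⟩, ?_⟩
    apply Subtype.ext
    change (x, y * v₀ * v₀) = (x, y)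
    rw [mul_assoc, mm_of_sq h.v2, mul_one]

/-- The order formula. -/
theorem card_G_eq : Nat.card G = Nat.card {x // x ∈ RR z v₀} * 16 * 960 +
    1920 * (Nat.card {x // x ∈ RR z v₀} * (Nat.card {x // x ∈ RR z v₀} - 2)) := by
  have hz : orderOf z = 2 := orderOf_eq_prime h.z2 h.z1
  have hv : orderOf v₀ = 2 := orderOf_eq_prime h.v2 h.v₀_ne
  have hf := order_formula_two_classes z v₀ hz hv h.nc (fun t ht => by
    have ht2 : t ^ 2 = 1 := by rw [← ht]; exact pow_orderOf_eq_one t
    have ht1 : t ≠ 1 := by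
      rintro rfl
      simp at ht
    exact h.all_two ht2 ht1)
  rw [hf, h.card_pairs_z, h.card_pairs_v, h.card_X, h.s.card_C]

/-- The small case does not occur. -/
theorem not_51840 (hc : Nat.card G = 51840) : False := by
  classical
  obtain ⟨σ, hσ1, hσ5⟩ := a5_five
  obtain ⟨c, rfl⟩ := h.s.surj σ
  obtain ⟨hf5, hfix, -⟩ := h.s.five_elt hσ5 hσ1
  have hπf := h.s.pi_pow_ne hσ5 hσ1
  set fc : ↥(CC z) := c ^ 384 with hfc
  set f : G := (fc : G) with hf
  have hf5' : (π fc) ^ 5 = 1 := by rw [← map_pow, hf5, map_one]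
  have hf5G : f ^ 5 = 1 := congrArg Subtype.val hf5
  have hfz : Commute f z := h.s.cz fc
  have hzz := mm_of_sq h.z2
  -- the class of `z`
  let D := {x : G // IsConj z x}
  have hz2 := h.z2
  have hD27 : Nat.card D = 27 := by
    let φ : G → D := fun g => ⟨g * z * g⁻¹, isConj_of g z⟩
    have hr : Set.range φ = Set.univ := by
      rw [Set.eq_univ_iff_forall]
      rintro ⟨x, hx⟩
      obtain ⟨g, hg⟩ := isConj_iff.1 hx
      exact ⟨g, Subtype.ext hg⟩
    have h1 := card_orbit (CC z) φ (by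
      intro a b
      rw [memC]
      constructor
      · intro e
        have e1 : a * z * a⁻¹ = b * z * b⁻¹ := congrArg Subtype.val e
        calc a⁻¹ * b * z = a⁻¹ * (b * z * b⁻¹) * b := by group
          _ = a⁻¹ * (a * z * a⁻¹) * b := by rw [e1]
          _ = z * (a⁻¹ * b) := by group
      · intro e
        apply Subtype.ext
        calc a * z * a⁻¹ = a * (z * (a⁻¹ * b)) * b⁻¹ := by group
          _ = a * (a⁻¹ * b * z) * b⁻¹ := by rw [e]
          _ = b * z * b⁻¹ := by group)
    rw [hr, Nat.card_congr (Equiv.Set.univ _), h.s.card_C, hc] at h1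
    omega
  -- the action of `f`
  let Df := {x : D // Commute x.1 f}
  let φf : D → D := fun x => ⟨f * x.1 * f⁻¹, x.2.trans (isConj_of f x.1)⟩
  have hm5 := card_mod5 φf (fun x => by
    apply Subtype.ext
    change f * (f * (f * (f * (f * x.1 * f⁻¹) * f⁻¹) * f⁻¹) * f⁻¹) * f⁻¹ = x.1
    have e5 : f * f * f * f * f = 1 := by
      rw [← hf5G]; simp only [pow_succ, pow_zero, one_mul]
    calc _ = (f * f * f * f * f) * x.1 * (f * f * f * f * f)⁻¹ := by group
      _ = x.1 := by rw [e5]; simp)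
  have hDf : Nat.card {a : D // φf a = a} = Nat.card Df := by
    apply Nat.card_congr
    exact Equiv.subtypeEquivRight (fun a => ⟨fun e => (cmt_of_conj_eq (congrArg Subtype.val e)).symm,
      fun e => Subtype.ext (conj_eq_of_cmt e.symm)⟩)
  rw [hDf, hD27] at hm5
  -- the action of `z` on the fixed points
  have hfixz : ∀ x : Df, Commute x.1.1 z → x.1.1 = z := by
    intro x hxz
    have hxQ := h.D_Q hxz x.1.2
    rcases hfix _ hxQ x.2.symm with e | e
    · exact absurd e (conj_ne x.1.2 h.z1)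
    · exact e
  let φz : Df → Df := fun x => ⟨⟨z * x.1.1 * z⁻¹, x.1.2.trans (isConj_of z x.1.1)⟩, by
    have h1 : Commute (z * x.1.1 * z⁻¹) (z * f * z⁻¹) := cmt_conj x.2 z
    rwa [conj_eq_of_cmt (show Commute z f from hfz.symm)] at h1⟩
  have hm2 := card_fix_two φz (fun x => by
    apply Subtype.ext
    apply Subtype.ext
    change z * (z * x.1.1 * z⁻¹) * z⁻¹ = x.1.1
    rw [conj_conj, hzz]
    simp)
  have hz₀ : Df := ⟨⟨z, IsConj.refl z⟩, hfz.symm⟩
  have hfz1 : Nat.card {a : Df // φz a = a} = 1 := by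
    rw [Nat.card_eq_one_iff_unique]
    refine ⟨⟨?_⟩, ⟨⟨⟨⟨z, IsConj.refl z⟩, hfz.symm⟩, ?_⟩⟩⟩
    · rintro ⟨a, ha⟩ ⟨b, hb⟩
      have e1 : z * a.1.1 * z⁻¹ = a.1.1 := congrArg (fun w : Df => w.1.1) ha
      have e2 : z * b.1.1 * z⁻¹ = b.1.1 := congrArg (fun w : Df => w.1.1) hb
      have e3 := hfixz a (cmt_of_conj_eq e1).symm
      have e4 := hfixz b (cmt_of_conj_eq e2).symm
      apply Subtype.ext
      apply Subtype.ext
      apply Subtype.ext
      rw [e3, e4]
    · apply Subtype.ext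
      apply Subtype.ext
      change z * z * z⁻¹ = z
      group
  rw [hfz1] at hm2
  -- `f` moves a point
  have hlt : Nat.card Df < 27 := by
    by_contra hge
    have hle : Nat.card Df ≤ Nat.card D := by
      exact Nat.card_le_card_of_injective (fun x : Df => x.1) Subtype.val_injective
    have hbij : Nat.card Df = Nat.card D := by omega
    -- every point is fixed; then `f` centralizes the involutions of `Q`
    have hall : ∀ x : D, Commute x.1 f := by
      have hinj : Function.Injective (fun x : Df => x.1) := Subtype.val_injective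
      have hsurj := (Nat.bijective_iff_injective_and_card _).2 ⟨hinj, hbij⟩
      intro x
      obtain ⟨y, rfl⟩ := hsurj.2 x
      exact y.2
    -- a noncentral involution of `Q`
    obtain ⟨s, hs, hs1, hsz, hsQ⟩ := h.exists_P
    have := hfix _ hsQ (hall ⟨_, h.hD _ hsQ hs hs1⟩).symm
    rcases this with e | e
    · exact hs1 e
    · exact hsz e
  -- a single orbit under `C(f)`
  have horb : Nat.card Df ∣ Nat.card G := by
    let Cf : Subgroup G := centralizer ({f} : Set G)
    let φc : ↥Cf → Df := fun g => ⟨⟨(g : G) * z * (g : G)⁻¹, isConj_of (g : G) z⟩, by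
      have h1 : Commute ((g : G) * z * (g : G)⁻¹) ((g : G) * f * (g : G)⁻¹) := cmt_conj hfz.symm (g : G)
      have h2 : Commute (g : G) f := memC.1 g.2
      rwa [conj_eq_of_cmt h2] at h1⟩
    have hr : Set.range φc = Set.univ := by
      rw [Set.eq_univ_iff_forall]
      rintro ⟨⟨x, hx⟩, hxf⟩
      by_cases hxz : Commute x z
      · have e := hfixz ⟨⟨x, hx⟩, hxf⟩ hxz
        change x = z at e
        subst e
        refine ⟨1, ?_⟩
        apply Subtype.ext
        apply Subtype.ext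
        change (1 : G) * x * (1 : G)⁻¹ = x
        group
      · have hx2 := conj_sq hx h.z2
        have hodd : Odd (orderOf (z * x)) := by
          by_contra hne
          rw [Nat.not_odd_iff_even] at hne
          obtain ⟨hw, hwz, hwx⟩ := Cfsg.Agent.Lib.Involutions.Dihedral.central_involution h.z2 hx2 hne
          set i := (z * x) ^ (orderOf (z * x) / 2) with hi
          have hif : Commute i f := by
            rw [hi]
            exact ((Commute.mul_left hfz.symm hxf).pow_left _)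
          have hi2 : i ^ 2 = 1 := by rw [← hw]; exact pow_orderOf_eq_one i
          have hi1 : i ≠ 1 := by
            intro e
            rw [e] at hw
            simp at hw
          set ic : ↥(CC z) := ⟨i, memC.2 hwz⟩ with hic
          have hπi : π ic = 1 := by
            apply a5_five_cent (π fc) (π ic) hπf hf5'
            · rw [← map_pow]
              have : ic ^ 2 = 1 := Subtype.ext hi2
              rw [this, map_one]
            · rw [← map_mul, ← map_mul]
              congr 1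
              exact Subtype.ext hif
          have hiQ : i ∈ Q := (h.s.ker ic).1 hπi
          rcases hfix i hiQ hif.symm with e | e
          · exact hi1 e
          · apply hxz
            rw [← e] at *
            exact hwx.symm
        obtain ⟨i₀, -, hi₀, hcm⟩ := Cfsg.Agent.Lib.StrongEmb.Basic.exists_midpoint h.z2 hx2 hodd
        have hi₀f := hcm f hfz hxf.symm
        refine ⟨⟨i₀, memC.2 hi₀f.symm⟩, ?_⟩
        apply Subtype.ext
        apply Subtype.ext
        exact hi₀
    have h1 := card_orbit (centralizer ({(⟨z, memC.2 hfz.symm⟩ : ↥Cf)} : Set ↥Cf)) φc (by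
      intro a b
      rw [Subgroup.mem_centralizer_singleton_iff]
      constructor
      · intro e
        have e1 : (a : G) * z * (a : G)⁻¹ = (b : G) * z * (b : G)⁻¹ := congrArg (fun w : Df => w.1.1) e
        apply Subtype.ext
        change (a : G)⁻¹ * b * z = z * ((a : G)⁻¹ * b)
        calc (a : G)⁻¹ * b * z = (a : G)⁻¹ * ((b : G) * z * (b : G)⁻¹) * b := by group
          _ = (a : G)⁻¹ * ((a : G) * z * (a : G)⁻¹) * b := by rw [e1]
          _ = z * ((a : G)⁻¹ * b) := by group
      · intro e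
        have e1 : (a : G)⁻¹ * b * z = z * ((a : G)⁻¹ * b) := congrArg Subtype.val e
        apply Subtype.ext
        apply Subtype.ext
        change (a : G) * z * (a : G)⁻¹ = (b : G) * z * (b : G)⁻¹
        calc (a : G) * z * (a : G)⁻¹ = a * (z * ((a : G)⁻¹ * b)) * (b : G)⁻¹ := by group
          _ = a * ((a : G)⁻¹ * b * z) * (b : G)⁻¹ := by rw [e1]
          _ = (b : G) * z * (b : G)⁻¹ := by group)
    rw [hr, Nat.card_congr (Equiv.Set.univ _)] at h1
    exact (Dvd.intro _ h1.symm).trans (Subgroup.card_subgroup_dvd_card Cf)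
  rw [hc] at horb
  -- arithmetic
  have hm5' : 27 % 5 = Nat.card Df % 5 := hm5
  have hm2' : Nat.card Df % 2 = 1 % 2 := hm2
  have hcases : Nat.card Df = 7 ∨ Nat.card Df = 17 := by omega
  rcases hcases with e | e <;> rw [e] at horb <;> exact absurd horb (by decide)

/-- The order of `G`. -/
theorem card_G : Nat.card G = 604800 := by
  rcases h.card_R with e | e
  · exfalso
    apply h.not_51840
    rw [h.card_G_eq, e]
  · rw [h.card_G_eq, e]

end HT

--INST4
end Cfsg.Agent.Lib.HJT.Str
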