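import Cfsg.Agent.Lib.HJT.Inst
import Cfsg.Agent.Lib.HJT.GeoT
import Cfsg.Agent.Lib.Core.Basic

/-!
# The structure of the centralizer of the second class of involutions
-/

set_option autoImplicit false
set_option linter.unusedSectionVars false
set_option linter.unusedVariables false
set_option linter.style.longLine false

namespace Cfsg.Agent.Lib.HJT.Str

open Subgroup Cfsg.Agent.Lib.HJOrder.Basic
  Cfsg.Agent.Lib.HJOrder.Tau Cfsg.Agent.Lib.HJOrder.A5 Cfsg.Agent.Lib.HJOrder.Local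
  Cfsg.Agent.Lib.Involutions.Thompson Cfsg.Agent.Lib.HJT.A5x Cfsg.Agent.Lib.HJT.Geo
  Cfsg.Agent.Lib.HJT.Frame Cfsg.Agent.Lib.HJT.Str
open scoped commutatorElement

variable {G : Type*} [Group G] [Finite G]

/-- Internal direct products. -/
theorem mulEquiv_prod {Y : Type*} [Group Y] [Finite Y] (A B : Subgroup Y) (hc : ∀ a ∈ A, ∀ b ∈ B, Commute a b)
    (hinf : A ⊓ B = ⊥) (hsup : A ⊔ B = ⊤) : Nonempty (↥A × ↥B ≃* Y) := by
  let f : ↥A × ↥B →* Y := MonoidHom.mk' (fun p => (p.1 : Y) * p.2) (by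
    rintro ⟨⟨a, ha⟩, ⟨b, hb⟩⟩ ⟨⟨a', ha'⟩, ⟨b', hb'⟩⟩
    change a * a' * (b * b') = a * b * (a' * b')
    have := (hc a' ha' b hb).eq
    calc a * a' * (b * b') = a * (a' * b) * b' := by group
      _ = a * (b * a') * b' := by rw [this]
      _ = a * b * (a' * b') := by group)
  have hinj : Function.Injective f := by
    rw [injective_iff_map_eq_one]
    rintro ⟨⟨a, ha⟩, ⟨b, hb⟩⟩ e
    have e1 : a * b = 1 := e
    have e2 : a = b⁻¹ := eq_inv_of_mul_eq_one_left e1
    have e3 : a ∈ A ⊓ B := Subgroup.mem_inf.2 ⟨ha, by rw [e2]; exact inv_mem hb⟩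
    rw [hinf, mem_bot] at e3
    have e4 : b = 1 := by
      rw [e3, one_mul] at e1
      exact e1
    subst e3
    subst e4
    rfl
  have hsurj : Function.Surjective f := by
    intro y
    have hy : y ∈ A ⊔ B := by rw [hsup]; trivial
    obtain ⟨a, ha, b, hb, rfl⟩ := exists_mul_of_sup (A := A) (B := B) (fun b hb a ha => by
      rw [(hc a ha b hb).symm.eq, mul_assoc, mul_inv_cancel, mul_one]; exact ha) hy
    exact ⟨(⟨a, ha⟩, ⟨b, hb⟩), rfl⟩
  exact ⟨MulEquiv.ofBijective f ⟨hinj, hsurj⟩⟩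

/-- The lines. -/
def lineG (z v₀ u : G) : Set G := {w | IsConj z w ∧ Commute w v₀ ∧ Commute w u}

/-- The set of lines. -/
def SS (z v₀ : G) : Type _ := {A : Set G // ∃ u, IsConj z u ∧ Commute u v₀ ∧ A = lineG z v₀ u}

/-- The elements centralizing all the points, in the ambient group. -/
def TG (z v₀ : G) : Subgroup G := (Geom.TT (RR z v₀)).map (CC v₀).subtype

theorem mem_TG {z v₀ t : G} : t ∈ TG z v₀ ↔ ∃ ht : Commute t v₀, ∀ u, IsConj z u → Commute u v₀ → Commute t u := by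
  constructor
  · rintro ⟨x, hx, rfl⟩
    refine ⟨cX x, fun u hu huv => ?_⟩
    exact cmt_coe.1 (Geom.mem_TT.1 hx ⟨u, memC.2 huv⟩ hu)
  · rintro ⟨ht, hall⟩
    refine ⟨⟨t, memC.2 ht.eq⟩, ?_, rfl⟩
    exact Geom.mem_TT.2 (fun c hc => cmt_coe.2 (hall _ hc (cX c)))

/-- The normalizer of `T`. -/
abbrev WW (z v₀ : G) : Subgroup G := normalizer ((TG z v₀ : Subgroup G) : Set G)

instance instFiniteSS (z v₀ : G) : Finite (SS z v₀) := by
  unfold SS
  infer_instance

namespace HT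

variable {z v₀ : G} {Q : Subgroup G} {π : ↥(CC z) →* AFive} (h : HT z v₀ Q π)
include h

theorem card_R15 : Nat.card {x // x ∈ RR z v₀} = 15 := by
  rcases h.card_R with e | e
  · exfalso
    apply h.not_51840
    rw [h.card_G_eq, e]
  · exact e

theorem exists_noncomm : ∃ a ∈ RR z v₀, ∃ b ∈ RR z v₀, ¬ Commute a b := by
  by_contra hall
  push Not at hall
  have hz := h.z_mem
  have h1 := h.geom.card_line hz
  have h2 : Nat.card {x // x ∈ RR z v₀} = Nat.card {x // x ∈ RR z v₀ ∧ Commute x ⟨z, memC.2 (show Commute z v₀ from (show Commute v₀ z from h.vz).symm)⟩} :=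
    Nat.card_congr (Equiv.subtypeEquivRight (fun x => ⟨fun hx => ⟨hx, hall _ hx _ hz⟩, fun hx => hx.1⟩))
  rw [h.card_R15, h1] at h2
  omega

theorem card_CC : Nat.card (CC v₀) = 240 := by rw [h.card_X, h.card_R15]

theorem card_TT' : Nat.card (Geom.TT (RR z v₀)) = 4 := by
  obtain ⟨a, ha, b, hb, hab⟩ := h.exists_noncomm
  exact h.geom.card_TT ha hb hab

theorem card_TG : Nat.card (TG z v₀) = 4 := by
  unfold TG
  rw [Subgroup.card_map_of_injective (CC v₀).subtype_injective]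
  exact h.card_TT'

theorem T_central' {t : ↥(CC v₀)} (ht : t ∈ Geom.TT (RR z v₀)) (x : ↥(CC v₀)) : Commute x t := by
  obtain ⟨a, ha, b, hb, hab⟩ := h.exists_noncomm
  exact h.geom.T_central ha hb hab ht x

theorem TG_central {t x : G} (ht : t ∈ TG z v₀) (hx : Commute x v₀) : Commute x t := by
  obtain ⟨t', ht', rfl⟩ := ht
  exact cmt_coe.1 (h.T_central' ht' ⟨x, memC.2 hx⟩)

theorem v₀_TG : v₀ ∈ TG z v₀ := mem_TG.2 ⟨Commute.refl _, fun u _ huv => huv.symm⟩

theorem TG_sq {t : G} (ht : t ∈ TG z v₀) : t ^ 2 = 1 := by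
  obtain ⟨h1, h2⟩ := mem_TG.1 ht
  exact (h.at_all (IsConj.refl z) (IsConj.refl v₀) (show Commute z v₀ from (show Commute v₀ z from h.vz).symm)).sq t
    (h2 z (IsConj.refl z) (show Commute z v₀ from (show Commute v₀ z from h.vz).symm)) h1

/-- The elements of `T` other than the identity are in the class of `v₀`. -/
theorem TG_class {t : G} (ht : t ∈ TG z v₀) (ht1 : t ≠ 1) : IsConj v₀ t := by
  obtain ⟨h1, h2⟩ := mem_TG.1 ht
  rcases h.all_two (h.TG_sq ht) ht1 with e | e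
  · exfalso
    obtain ⟨a, ha, b, hb, hab⟩ := h.exists_noncomm
    have hta := h2 a ha (cX a)
    have htb := h2 b hb (cX b)
    have hG := h.geom
    set t' : ↥(CC v₀) := ⟨t, memC.2 h1⟩ with ht'
    have hR : t' ∈ RR z v₀ := e
    exact hab (hG.trans ha hR hb (cmt_coe.2 hta.symm) (cmt_coe.2 htb))
  · exact e

theorem X_le_W : CC v₀ ≤ WW z v₀ := by
  intro x hx
  rw [mem_normalizer_iff]
  intro t
  constructor
  · intro ht
    rw [conj_eq_of_cmt (h.TG_central ht (memC.1 hx))]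
    exact ht
  · intro ht
    have := h.TG_central ht (memC.1 hx)
    have e : t = x⁻¹ * (x * t * x⁻¹) * x := by group
    have h3 := conj_eq_of_cmt (show Commute x⁻¹ (x * t * x⁻¹) from this.inv_left)
    rw [inv_inv] at h3
    rw [e, h3]
    exact ht

/-- Elements of `W` preserve the points. -/
theorem pres {g u : G} (hg : g ∈ WW z v₀) (huv : Commute u v₀) : Commute (g * u * g⁻¹) v₀ := by
  have hy : g⁻¹ * v₀ * g ∈ TG z v₀ := by
    have := (mem_normalizer_iff.1 (inv_mem hg) v₀).1 h.v₀_TG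
    rwa [inv_inv] at this
  have h1 := h.TG_central hy huv
  have h2 := cmt_conj h1 g
  have e : g * (g⁻¹ * v₀ * g) * g⁻¹ = v₀ := by group
  rwa [e] at h2

theorem image_line {g u : G} (hg : g ∈ WW z v₀) (huv : Commute u v₀) :
    (fun x => g * x * g⁻¹) '' lineG z v₀ u = lineG z v₀ (g * u * g⁻¹) := by
  ext x
  constructor
  · rintro ⟨y, ⟨hy1, hy2, hy3⟩, rfl⟩
    exact ⟨hy1.trans (isConj_of g y), h.pres hg hy2, cmt_conj hy3 g⟩
  · rintro ⟨hx1, hx2, hx3⟩
    refine ⟨g⁻¹ * x * g, ⟨?_, ?_, ?_⟩, by group⟩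
    · have := isConj_of g⁻¹ x
      rw [inv_inv] at this
      exact hx1.trans this
    · have := h.pres (inv_mem hg) hx2
      rwa [inv_inv] at this
    · exact cmt_conj_left hx3
  
end HT

/-- The action of `W` on the lines. -/
@[reducible] noncomputable def actW {z v₀ : G} {Q : Subgroup G} {π : ↥(CC z) →* AFive} (h : HT z v₀ Q π) :
    MulAction ↥(WW z v₀) (SS z v₀) where
  smul g A := ⟨(fun x => (g : G) * x * (g : G)⁻¹) '' A.1, by
    obtain ⟨u, hu, huv, e⟩ := A.2
    exact ⟨g * u * g⁻¹, hu.trans (isConj_of _ u), h.pres g.2 huv, by rw [e, h.image_line g.2 huv]; rfl⟩⟩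
  one_smul A := by
    apply Subtype.ext
    change (fun x => ((1 : ↥(WW z v₀)) : G) * x * ((1 : ↥(WW z v₀)) : G)⁻¹) '' A.1 = A.1
    simp
  mul_smul g g' A := by
    apply Subtype.ext
    change (fun x => ((g * g' : ↥(WW z v₀)) : G) * x * ((g * g' : ↥(WW z v₀)) : G)⁻¹) '' A.1 =
      (fun x => (g : G) * x * (g : G)⁻¹) '' ((fun x => (g' : G) * x * (g' : G)⁻¹) '' A.1)
    rw [Set.image_image]
    apply Set.image_congr
    intro x _
    push_cast
    group

/-- The permutation representation on lines. -/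
noncomputable def psi {z v₀ : G} {Q : Subgroup G} {π : ↥(CC z) →* AFive} (h : HT z v₀ Q π) :
    ↥(WW z v₀) →* Equiv.Perm (SS z v₀) := @MulAction.toPermHom _ _ _ (actW h)

namespace HT

variable {z v₀ : G} {Q : Subgroup G} {π : ↥(CC z) →* AFive} (h : HT z v₀ Q π)
include h

theorem psi_apply (g : ↥(WW z v₀)) (A : SS z v₀) :
    ((psi h g A).1 : Set G) = (fun x => (g : G) * x * (g : G)⁻¹) '' A.1 := rfl

/-- Lines agree when their base points commute. -/
theorem line_eq {u w : G} (hu : IsConj z u) (huv : Commute u v₀) (hw : IsConj z w) (hwv : Commute w v₀) :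
    lineG z v₀ u = lineG z v₀ w ↔ Commute u w := by
  constructor
  · intro e
    have h1 : u ∈ lineG z v₀ u := ⟨hu, huv, Commute.refl u⟩
    rw [e] at h1
    exact h1.2.2
  · intro hc
    have key : ∀ {a b : G}, IsConj z a → Commute a v₀ → IsConj z b → Commute b v₀ → Commute a b →
        lineG z v₀ a ⊆ lineG z v₀ b := by
      rintro a b ha hav hb hbv hab x ⟨hx1, hx2, hx3⟩
      exact ⟨hx1, hx2, h.cent_trans ha hb (IsConj.refl v₀) hav hbv hab.symm hx3 hx2⟩
    exact Set.Subset.antisymm (key hu huv hw hwv hc) (key hw hwv hu huv hc.symm)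

/-- The number of lines. -/
theorem card_SS : Nat.card (SS z v₀) = 5 := by
  let R' := {x // x ∈ RR z v₀}
  let f : R' → SS z v₀ := fun u => ⟨lineG z v₀ u.1, u.1.1, u.2, cX u.1, rfl⟩
  have hfib : ∀ A : SS z v₀, Nat.card {x : R' // f x = A} = 3 := by
    rintro ⟨A, u, hu, huv, rfl⟩
    set u' : ↥(CC v₀) := ⟨u, memC.2 huv⟩ with hu'
    have hu'R : u' ∈ RR z v₀ := hu
    rw [← h.geom.card_line hu'R]
    apply Nat.card_congr
    refine
      { toFun := fun x => ⟨x.1.1, x.1.2, ?_⟩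
        invFun := fun y => ⟨⟨y.1, y.2.1⟩, ?_⟩
        left_inv := fun _ => rfl
        right_inv := fun _ => rfl }
    · have e : lineG z v₀ x.1.1 = lineG z v₀ u := congrArg Subtype.val x.2
      exact cmt_coe.2 ((h.line_eq x.1.2 (cX x.1.1) hu huv).1 e)
    · apply Subtype.ext
      exact (h.line_eq y.2.1 (cX y.1) hu huv).2 (cmt_coe.1 y.2.2)
  have h1 := card_sigma_const (fun A : SS z v₀ => {x : R' // f x = A}) 3 hfib
  rw [Nat.card_congr (Equiv.sigmaFiberEquiv f)] at h1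
  have h2 : Nat.card R' = 15 := h.card_R15
  omega

end HT

/-- The transfer argument: a central element of odd-index commutative subgroup in the commutator subgroup is trivial. -/
theorem comm_inf_central {Y : Type*} [Group Y] [Finite Y] (E : Subgroup Y) (hEc : ∀ a ∈ E, ∀ b ∈ E, Commute a b)
    {t : Y} (ht : ∀ x, Commute x t) (hi : t ^ E.index = t) (hk : t ∈ commutator Y) : t = 1 := by
  classical
  letI inst : CommGroup ↥E := { (inferInstance : Group ↥E) with
    mul_comm := fun a b => Subtype.ext (hEc a a.2 b b.2) }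
  let ϕ : ↥E →* ↥E := MonoidHom.id _
  have key : ∀ (k : ℕ) (g₀ : Y), g₀⁻¹ * t ^ k * g₀ ∈ E → g₀⁻¹ * t ^ k * g₀ = t ^ k := by
    intro k g₀ _
    have := conj_eq_of_cmt (show Commute g₀⁻¹ (t ^ k) from (ht g₀⁻¹).pow_right k)
    rwa [inv_inv] at this
  have h1 := MonoidHom.transfer_eq_pow ϕ t key
  have h2 : commutator Y ≤ (MonoidHom.transfer ϕ).ker := by
    rw [commutator_def, Subgroup.commutator_le]
    intro g₁ _ g₂ _
    rw [MonoidHom.mem_ker, map_commutatorElement, commutatorElement_eq_one_iff_mul_comm, mul_comm]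
  have h3 : MonoidHom.transfer ϕ t = 1 := h2 hk
  rw [h3] at h1
  have h4 : t ^ E.index = 1 := (congrArg Subtype.val h1).symm
  rw [hi] at h4
  exact h4

/-- A group of order 12 with a normal abelian subgroup of order four on which it acts nontrivially is `A₄`. -/
theorem a4_of {L : Type*} [Group L] [Finite L] (hc : Nat.card L = 12) (T : Subgroup L) [T.Normal] (hT : Nat.card T = 4)
    (hTc : ∀ a ∈ T, ∀ b ∈ T, Commute a b) (hmove : ∃ l : L, ∃ t ∈ T, ¬ Commute l t) :
    Nonempty (L ≃* alternatingGroup (Fin 4)) := by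
  classical
  have hF3 : Fact (Nat.Prime 3) := ⟨by norm_num⟩
  obtain ⟨g₃, hg₃⟩ := exists_prime_orderOf_dvd_card' (G := L) 3 (by rw [hc]; norm_num)
  set H : Subgroup L := zpowers g₃ with hH
  have hHc : Nat.card H = 3 := by rw [hH, Nat.card_zpowers, hg₃]
  have hq : Nat.card (L ⧸ H) = 4 := by
    have := Subgroup.card_eq_card_quotient_mul_card_subgroup H
    rw [hc, hHc] at this
    omega
  let e₀ : (L ⧸ H) ≃ Fin 4 := Finite.equivFinOfCardEq hq
  let f : L →* Equiv.Perm (Fin 4) := (Equiv.permCongrHom e₀).toMonoidHom.comp (MulAction.toPermHom L (L ⧸ H))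
  have hker : f.ker = H.normalCore := by
    rw [Subgroup.normalCore_eq_ker]
    ext x
    rw [MonoidHom.mem_ker, MonoidHom.mem_ker]
    change (Equiv.permCongrHom e₀) _ = 1 ↔ _
    exact map_eq_one_iff _ (Equiv.permCongrHom e₀).injective
  have hcore : H.normalCore = ⊥ := by
    by_contra hne
    have hle : H.normalCore ≤ H := Subgroup.normalCore_le H
    have hcard : Nat.card H.normalCore ∣ 3 := by
      rw [← hHc]
      exact Subgroup.card_dvd_of_le hle
    have hcases := (Nat.dvd_prime (by norm_num : Nat.Prime 3)).1 hcard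
    have heq : H.normalCore = H := by
      rcases hcases with e | e
      · exact absurd ((Subgroup.eq_bot_iff_card _).2 e) hne
      · exact Subgroup.eq_of_le_of_card_ge hle (by rw [e, hHc])
    have hHn : H.Normal := by
      rw [← heq]
      exact Subgroup.normalCore_normal H
    have hdis : T ⊓ H = ⊥ := by
      apply Subgroup.inf_eq_bot_of_coprime
      rw [hT, hHc]
      norm_num
    have hcomm : ∀ a ∈ T, ∀ b ∈ H, Commute a b := by
      intro a ha b hb
      exact Subgroup.commute_of_normal_of_disjoint T H ‹_› hHn (by rwa [disjoint_iff]) a b ha hb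
    have hn' : ∀ b ∈ H, ∀ a ∈ T, b * a * b⁻¹ ∈ T := by
      intro b hb a ha
      rw [conj_eq_of_cmt (hcomm a ha b hb).symm]
      exact ha
    have hsup := Cfsg.Agent.Lib.HJOrder.Local.card_sup_of_inf hn' hdis
    rw [hT, hHc] at hsup
    have htop : T ⊔ H = ⊤ := Subgroup.eq_top_of_card_eq _ (by rw [hsup, hc])
    obtain ⟨l, t, ht, hlt⟩ := hmove
    have hl : l ∈ T ⊔ H := by rw [htop]; trivial
    obtain ⟨a, ha, b, hb, rfl⟩ := Cfsg.Agent.Lib.HJOrder.Local.exists_mul_of_sup hn' hl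
    exact hlt ((hTc a ha t ht).mul_left (hcomm t ht b hb).symm)
  have hinj : Function.Injective f := by
    rw [← MonoidHom.ker_eq_bot_iff, hker, hcore]
  have hrange : f.range = alternatingGroup (Fin 4) := by
    apply Equiv.Perm.eq_alternatingGroup_of_index_eq_two
    have h1 := Subgroup.card_mul_index f.range
    have h2 : Nat.card f.range = 12 := by
      rw [← hc]
      exact (Nat.card_congr (MonoidHom.ofInjective hinj).toEquiv).symm
    rw [h2, Nat.card_perm] at h1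
    simp [Nat.factorial] at h1
    omega
  exact ⟨(MonoidHom.ofInjective hinj).trans (MulEquiv.subgroupCongr hrange)⟩

/-- A four-group. -/
theorem klein_of {T : Type*} [Group T] [Finite T] (hc : Nat.card T = 4) (h2 : ∀ a : T, a ^ 2 = 1) :
    Nonempty (T ≃* Multiplicative (ZMod 2) × Multiplicative (ZMod 2)) := by
  have hk : IsKleinFour T := by
    refine ⟨hc, ?_⟩
    have hd : Monoid.exponent T ∣ 2 := Monoid.exponent_dvd_of_forall_pow_eq_one h2
    rcases (Nat.dvd_prime Nat.prime_two).1 hd with e | e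
    · exfalso
      have hs : Subsingleton T := Monoid.exp_eq_one_iff.1 e
      have := Nat.card_of_subsingleton (1 : T)
      omega
    · exact e
  obtain ⟨e⟩ := IsKleinFour.nonempty_mulEquiv (G₁ := T) (G₂ := Multiplicative (ZMod 2 × ZMod 2))
  exact ⟨e.trans (MulEquiv.prodMultiplicative (ZMod 2) (ZMod 2))⟩

theorem card_CC_conj {a b : G} (h : IsConj a b) : Nat.card (CC a) = Nat.card (CC b) := by
  obtain ⟨c, rfl⟩ := isConj_iff.1 h
  apply Nat.card_congr
  refine
    { toFun := fun x => ⟨c * x.1 * c⁻¹, memC.2 (cmt_conj (memC.1 x.2) c)⟩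
      invFun := fun x => ⟨c⁻¹ * x.1 * c, memC.2 (cmt_conj_left (memC.1 x.2))⟩
      left_inv := fun x => Subtype.ext (by group)
      right_inv := fun x => Subtype.ext (by group) }

/-- The permutation representation on five letters. -/
noncomputable def psiF {z v₀ : G} {Q : Subgroup G} {π : ↥(CC z) →* AFive} (h : HT z v₀ Q π) :
    ↥(WW z v₀) →* Equiv.Perm (Fin 5) :=
  (Equiv.permCongrHom (Finite.equivFinOfCardEq h.card_SS)).toMonoidHom.comp (psi h)

/-- The restriction to the centralizer of `v₀`. -/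
noncomputable def psiX {z v₀ : G} {Q : Subgroup G} {π : ↥(CC z) →* AFive} (h : HT z v₀ Q π) :
    ↥(CC v₀) →* Equiv.Perm (Fin 5) := (psiF h).comp (Subgroup.inclusion h.X_le_W)

namespace HT

variable {z v₀ : G} {Q : Subgroup G} {π : ↥(CC z) →* AFive} (h : HT z v₀ Q π)
include h

theorem psiF_one {g : ↥(WW z v₀)} : psiF h g = 1 ↔ psi h g = 1 := by
  change (Equiv.permCongrHom _) _ = 1 ↔ _
  exact map_eq_one_iff _ (Equiv.permCongrHom _).injective

/-- Elements with trivial image normalize all lines. -/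
theorem Nm_of_psi {g : ↥(WW z v₀)} (hg : psi h g = 1) {u : G} (hu : IsConj z u) (huv : Commute u v₀) :
    Commute ((g : G) * u * (g : G)⁻¹) u := by
  have h1 : psi h g (⟨lineG z v₀ u, u, hu, huv, rfl⟩ : SS z v₀) = ⟨lineG z v₀ u, u, hu, huv, rfl⟩ := by rw [hg]; rfl
  have h2 : (fun x => (g : G) * x * (g : G)⁻¹) '' lineG z v₀ u = lineG z v₀ u := congrArg (fun A : SS z v₀ => A.1) h1
  rw [h.image_line g.2 huv] at h2
  exact (h.line_eq (hu.trans (isConj_of _ u)) (h.pres g.2 huv) hu huv).1 h2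

theorem ker_psiX : (psiX h).ker = Geom.TT (RR z v₀) := by
  ext x
  rw [MonoidHom.mem_ker]
  change psiF h (Subgroup.inclusion h.X_le_W x) = 1 ↔ _
  rw [h.psiF_one]
  obtain ⟨a, ha, b, hb, hab⟩ := h.exists_noncomm
  constructor
  · intro hx
    apply h.geom.Nm_all ha hb hab
    intro c hc
    exact cmt_coe.2 (h.Nm_of_psi hx hc (cX c))
  · intro hx
    apply Equiv.ext
    rintro ⟨A, u, hu, huv, rfl⟩
    apply Subtype.ext
    have hm : (x : G) ∈ WW z v₀ := h.X_le_W x.2
    have h1 := Geom.mem_TT.1 hx ⟨u, memC.2 huv⟩ hu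
    have h2 : Commute (x : G) u := cmt_coe.1 h1
    change (fun y => (x : G) * y * (x : G)⁻¹) '' lineG z v₀ u = lineG z v₀ u
    rw [h.image_line hm huv, conj_eq_of_cmt h2]

theorem card_range_X : Nat.card (psiX h).range = 60 := by
  have h1 := Subgroup.card_mul_index (psiX h).ker
  rw [Subgroup.index_ker, h.ker_psiX, h.card_TT', h.card_CC] at h1
  omega

theorem range_X : (psiX h).range = alternatingGroup (Fin 5) := by
  apply Equiv.Perm.eq_alternatingGroup_of_index_eq_two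
  have h1 := Subgroup.card_mul_index (psiX h).range
  rw [h.card_range_X, Nat.card_perm] at h1
  simp [Nat.factorial] at h1
  omega

theorem map_K : (commutator ↥(CC v₀)).map (psiX h) = alternatingGroup (Fin 5) := by
  rw [commutator_def, Subgroup.map_commutator, ← MonoidHom.range_eq_map, h.range_X]
  exact commutator_alternatingGroup_eq_self (by simp)

theorem sup_K : commutator ↥(CC v₀) ⊔ Geom.TT (RR z v₀) = ⊤ := by
  rw [eq_top_iff]
  intro x _
  have h1 : psiX h x ∈ (commutator ↥(CC v₀)).map (psiX h) := by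
    rw [h.map_K, ← h.range_X]
    exact ⟨x, rfl⟩
  obtain ⟨k, hk, hkx⟩ := h1
  have h2 : k⁻¹ * x ∈ Geom.TT (RR z v₀) := by
    rw [← h.ker_psiX, MonoidHom.mem_ker, map_mul, map_inv, hkx, inv_mul_cancel]
  have e : x = k * (k⁻¹ * x) := by group
  rw [e]
  exact mul_mem_sup hk h2

theorem inf_K : commutator ↥(CC v₀) ⊓ Geom.TT (RR z v₀) = ⊥ := by
  rw [eq_bot_iff]
  rintro t ⟨hk, ht⟩
  rw [mem_bot]
  obtain ⟨a, ha, b, hb, hab⟩ := h.exists_noncomm
  have hG := h.geom
  have hE : (centralizer ({a} : Set ↥(CC v₀))).index = 15 := by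
    have h1 := Subgroup.card_mul_index (centralizer ({a} : Set ↥(CC v₀)))
    rw [hG.card_C a ha, h.card_CC] at h1
    omega
  have hta : Commute t a := Geom.mem_TT.1 ht a ha
  have ht2 : t ^ 2 = 1 := hG.cent_sq a ha t hta
  refine comm_inf_central (centralizer ({a} : Set ↥(CC v₀))) ?_ (fun x => h.T_central' ht x) ?_ hk
  · intro x hx y hy
    rw [Subgroup.mem_centralizer_singleton_iff] at hx hy
    have e1 := hG.cent_sq a ha x hx
    have e2 := hG.cent_sq a ha y hy
    have e3 := hG.cent_sq a ha (x * y) ((show Commute x a from hx).mul_left (show Commute y a from hy))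
    have e4 := inv_eq_of_mul_eq_one_right (mm_of_sq e3)
    rw [mul_inv_rev, inv_of_sq e1, inv_of_sq e2] at e4
    exact e4.symm
  · rw [hE]
    calc t ^ 15 = (t ^ 2) ^ 7 * t := by rw [← pow_mul, ← pow_succ]
      _ = t := by rw [ht2]; simp

theorem card_K : Nat.card (commutator ↥(CC v₀)) = 60 := by
  have hn : ∀ b ∈ commutator ↥(CC v₀), ∀ a ∈ Geom.TT (RR z v₀), b * a * b⁻¹ ∈ Geom.TT (RR z v₀) := by
    intro b _ a ha
    rw [conj_eq_of_cmt (h.T_central' ha b)]
    exact ha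
  have h1 := card_sup_of_inf hn (by rw [inf_comm]; exact h.inf_K)
  rw [sup_comm, h.sup_K, Subgroup.card_top, h.card_CC, h.card_TT'] at h1
  omega

/-- The commutator subgroup is `A₅`. -/
theorem K_equiv : Nonempty (↥(commutator ↥(CC v₀)) ≃* alternatingGroup (Fin 5)) := by
  let f : ↥(commutator ↥(CC v₀)) →* Equiv.Perm (Fin 5) := (psiX h).comp (commutator ↥(CC v₀)).subtype
  have hinj : Function.Injective f := by
    rw [injective_iff_map_eq_one]
    rintro ⟨k, hk⟩ e
    have h1 : k ∈ (psiX h).ker := e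
    rw [h.ker_psiX] at h1
    have h2 : k ∈ commutator ↥(CC v₀) ⊓ Geom.TT (RR z v₀) := Subgroup.mem_inf.2 ⟨hk, h1⟩
    rw [h.inf_K, mem_bot] at h2
    exact Subtype.ext h2
  have hr : f.range = alternatingGroup (Fin 5) := by
    rw [← h.map_K, MonoidHom.range_eq_map]
    ext y
    constructor
    · rintro ⟨x, -, rfl⟩
      exact ⟨x.1, x.2, rfl⟩
    · rintro ⟨x, hx, rfl⟩
      exact ⟨⟨x, hx⟩, trivial, rfl⟩
  exact ⟨(MonoidHom.ofInjective hinj).trans (MulEquiv.subgroupCongr hr)⟩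

/-- The structure of the centralizer of `v₀`. -/
theorem main1 : Nonempty (↥(CC v₀) ≃* (Multiplicative (ZMod 2) × Multiplicative (ZMod 2)) × alternatingGroup (Fin 5)) := by
  obtain ⟨e₁⟩ := mulEquiv_prod (Geom.TT (RR z v₀)) (commutator ↥(CC v₀)) (fun a ha b _ => (h.T_central' ha b).symm)
    (by rw [inf_comm]; exact h.inf_K) (by rw [sup_comm]; exact h.sup_K)
  obtain ⟨e₂⟩ := h.K_equiv
  obtain ⟨e₃⟩ := klein_of (T := ↥(Geom.TT (RR z v₀))) h.card_TT' (fun a => by
    obtain ⟨a', ha', b, hb, hab⟩ := h.exists_noncomm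
    apply Subtype.ext
    exact h.geom.cent_sq a' ha' _ (Geom.mem_TT.1 a.2 a' ha'))
  exact ⟨e₁.symm.trans (MulEquiv.prodCongr e₃ e₂)⟩

/-- The largest normal 2-subgroup of the centralizer of `v₀`. -/
theorem pCore_X : Cfsg.pCore 2 ↥(CC v₀) = Geom.TT (RR z v₀) := by
  have hF2 : Fact (Nat.Prime 2) := ⟨Nat.prime_two⟩
  apply le_antisymm
  · apply sSup_le
    rintro N ⟨hN, hp⟩
    let f : ↥(CC v₀) →* alternatingGroup (Fin 5) := (psiX h).codRestrict (alternatingGroup (Fin 5)) (fun x => by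
      rw [← h.range_X]; exact ⟨x, rfl⟩)
    have hf : Function.Surjective f := by
      rintro ⟨y, hy⟩
      rw [← h.range_X] at hy
      obtain ⟨x, rfl⟩ := hy
      exact ⟨x, rfl⟩
    have hker : f.ker = Geom.TT (RR z v₀) := by
      rw [← h.ker_psiX]
      ext x
      rw [MonoidHom.mem_ker, MonoidHom.mem_ker]
      exact Subtype.ext_iff
    have hNm : (N.map f).Normal := hN.map f hf
    have hs : IsSimpleGroup (alternatingGroup (Fin 5)) := alternatingGroup.isSimpleGroup_five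
    rcases hNm.eq_bot_or_eq_top with e | e
    · rw [← hker]
      intro x hx
      have h1 : f x ∈ N.map f := ⟨x, hx, rfl⟩
      rw [e, mem_bot] at h1
      exact h1
    · exfalso
      have hpm : IsPGroup 2 ↥(N.map f) := hp.map f
      obtain ⟨n, hn⟩ := IsPGroup.iff_card.1 hpm
      rw [e, Subgroup.card_top, show Nat.card (alternatingGroup (Fin 5)) = 60 from a5_card] at hn
      have h6 : n < 6 := by
        by_contra hge
        push Not at hge
        have := Nat.pow_le_pow_right (by norm_num : 0 < 2) hge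
        omega
      interval_cases n <;> omega
  · apply le_sSup
    refine ⟨⟨fun t ht g => ?_⟩, ?_⟩
    · rw [conj_eq_of_cmt (h.T_central' ht g)]
      exact ht
    · exact IsPGroup.of_card (n := 2) (by rw [h.card_TT']; norm_num)

end HT

namespace HT

variable {z v₀ : G} {Q : Subgroup G} {π : ↥(CC z) →* AFive} (h : HT z v₀ Q π)
include h

theorem CC_y {y : G} (hy : y ∈ TG z v₀) (hy1 : y ≠ 1) : CC v₀ = CC y := by
  apply Subgroup.eq_of_le_of_card_ge
  · intro x hx
    exact memC.2 (h.TG_central hy (memC.1 hx))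
  · rw [card_CC_conj (h.TG_class hy hy1)]

theorem conj_pres {g y u : G} (hy : y ∈ TG z v₀) (hy1 : y ≠ 1) (hgv : g * v₀ * g⁻¹ = y) :
    Commute u v₀ ↔ Commute (g * u * g⁻¹) v₀ := by
  have hC := h.CC_y hy hy1
  constructor
  · intro hu
    have h1 := cmt_conj hu g
    rw [hgv] at h1
    have h2 : g * u * g⁻¹ ∈ CC y := memC.2 h1
    rw [← hC] at h2
    exact memC.1 h2
  · intro hu
    have h2 : g * u * g⁻¹ ∈ CC v₀ := memC.2 hu
    rw [hC] at h2
    have h3 : Commute (g * u * g⁻¹) y := memC.1 h2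
    rw [← hgv] at h3
    exact cmt_unconj h3

theorem mem_W_of {g y : G} (hy : y ∈ TG z v₀) (hy1 : y ≠ 1) (hgv : g * v₀ * g⁻¹ = y) : g ∈ WW z v₀ := by
  rw [mem_normalizer_iff]
  intro t
  have hP := fun u => h.conj_pres (u := u) hy hy1 hgv
  constructor
  · intro ht
    obtain ⟨h1, h2⟩ := mem_TG.1 ht
    refine mem_TG.2 ⟨(hP t).1 h1, fun u hu huv => ?_⟩
    have e : g * (g⁻¹ * u * g) * g⁻¹ = u := by group
    have h3 : Commute (g⁻¹ * u * g) v₀ := (hP _).2 (by rw [e]; exact huv)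
    have h4 : IsConj z (g⁻¹ * u * g) := by
      have := isConj_of g⁻¹ u
      rw [inv_inv] at this
      exact hu.trans this
    have h5 := cmt_conj (h2 _ h4 h3) g
    rwa [e] at h5
  · intro ht
    obtain ⟨h1, h2⟩ := mem_TG.1 ht
    refine mem_TG.2 ⟨(hP t).2 h1, fun u hu huv => ?_⟩
    have h5 := h2 (g * u * g⁻¹) (hu.trans (isConj_of g u)) ((hP u).1 huv)
    exact cmt_unconj h5

theorem card_T_ne : Nat.card {y : G // y ∈ TG z v₀ ∧ y ≠ 1} = 3 := by
  have h1 := card_split (fun y : G => y ∈ TG z v₀) (fun y => y ≠ 1)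
  have h2 : Nat.card {y : G // y ∈ TG z v₀} = 4 := h.card_TG
  have h3 : Nat.card {y : G // y ∈ TG z v₀ ∧ ¬ y ≠ 1} = 1 := by
    rw [Nat.card_eq_one_iff_unique]
    refine ⟨⟨?_⟩, ⟨⟨1, one_mem _, by simp⟩⟩⟩
    rintro ⟨a, -, ha⟩ ⟨b, -, hb⟩
    apply Subtype.ext
    push Not at ha hb
    exact ha.trans hb.symm
  omega

theorem card_W : Nat.card (WW z v₀) = 720 := by
  let Y := {y : G // y ∈ TG z v₀ ∧ y ≠ 1}
  let φ : ↥(WW z v₀) → Y := fun g => ⟨(g : G) * v₀ * (g : G)⁻¹, (mem_normalizer_iff.1 g.2 v₀).1 h.v₀_TG,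
    conj_ne (isConj_of _ v₀) h.v₀_ne⟩
  have hr : Set.range φ = Set.univ := by
    rw [Set.eq_univ_iff_forall]
    rintro ⟨y, hy, hy1⟩
    obtain ⟨g, hg⟩ := isConj_iff.1 (h.TG_class hy hy1)
    exact ⟨⟨g, h.mem_W_of hy hy1 hg⟩, Subtype.ext hg⟩
  have h1 := card_orbit ((CC v₀).subgroupOf (WW z v₀)) φ (by
    intro a b
    rw [Subgroup.mem_subgroupOf, memC]
    constructor
    · intro e
      have e1 : (a : G) * v₀ * (a : G)⁻¹ = (b : G) * v₀ * (b : G)⁻¹ := congrArg (fun w : Y => w.1) e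
      change (a : G)⁻¹ * b * v₀ = v₀ * ((a : G)⁻¹ * b)
      calc (a : G)⁻¹ * b * v₀ = (a : G)⁻¹ * ((b : G) * v₀ * (b : G)⁻¹) * b := by group
        _ = (a : G)⁻¹ * ((a : G) * v₀ * (a : G)⁻¹) * b := by rw [e1]
        _ = v₀ * ((a : G)⁻¹ * b) := by group
    · intro e
      have e1 : (a : G)⁻¹ * b * v₀ = v₀ * ((a : G)⁻¹ * b) := e
      apply Subtype.ext
      change (a : G) * v₀ * (a : G)⁻¹ = (b : G) * v₀ * (b : G)⁻¹
      calc (a : G) * v₀ * (a : G)⁻¹ = a * (v₀ * ((a : G)⁻¹ * b)) * (b : G)⁻¹ := by group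
        _ = a * ((a : G)⁻¹ * b * v₀) * (b : G)⁻¹ := by rw [e1]
        _ = (b : G) * v₀ * (b : G)⁻¹ := by group)
  rw [hr, Nat.card_congr (Equiv.Set.univ _), Nat.card_congr (Subgroup.subgroupOfEquivOfLe h.X_le_W).toEquiv, h.card_CC] at h1
  have h3 : Nat.card Y = 3 := h.card_T_ne
  rw [h3] at h1
  exact h1

theorem card_L : Nat.card (psiF h).ker = 12 := by
  have h1 := Subgroup.card_mul_index (psiF h).ker
  rw [Subgroup.index_ker, h.card_W] at h1
  have hP : Nat.card (Equiv.Perm (Fin 5)) = 120 := by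
    rw [Nat.card_perm]; simp [Nat.factorial]
  have hge : alternatingGroup (Fin 5) ≤ (psiF h).range := by
    rw [← h.range_X]
    rintro _ ⟨x, rfl⟩
    exact ⟨_, rfl⟩
  have h2 : (psiF h).range.index ∣ 2 := by
    have h3 := Subgroup.index_dvd_of_le hge
    have h4 : (alternatingGroup (Fin 5)).index = 2 := by
      have h5 := Subgroup.card_mul_index (alternatingGroup (Fin 5))
      rw [show Nat.card (alternatingGroup (Fin 5)) = 60 from a5_card, hP] at h5
      omega
    rwa [h4] at h3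
  have h6 := Subgroup.card_mul_index (psiF h).range
  rw [hP] at h6
  have hT4 : 4 ∣ Nat.card (psiF h).ker := by
    have hle : (TG z v₀).subgroupOf (WW z v₀) ≤ (psiF h).ker := by
      intro t ht
      rw [Subgroup.mem_subgroupOf] at ht
      obtain ⟨x, hx, hxt⟩ := ht
      have hx' : x ∈ (psiX h).ker := by rw [h.ker_psiX]; exact hx
      have e : Subgroup.inclusion h.X_le_W x = t := Subtype.ext hxt
      rw [MonoidHom.mem_ker, ← e]
      exact hx'
    have hle2 : TG z v₀ ≤ WW z v₀ := by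
      intro t ht
      exact h.X_le_W (memC.2 (mem_TG.1 ht).1)
    have := Subgroup.card_dvd_of_le hle
    rwa [Nat.card_congr (Subgroup.subgroupOfEquivOfLe hle2).toEquiv, h.card_TG] at this
  rcases (Nat.dvd_prime Nat.prime_two).1 h2 with e | e
  · rw [e] at h6
    have e2 : Nat.card (psiF h).range = 120 := by omega
    rw [e2] at h1
    omega
  · rw [e] at h6
    have e2 : Nat.card (psiF h).range = 60 := by omega
    rw [e2] at h1
    omega

/-- `K` in `W`. -/
theorem card_KW : Nat.card ((commutator ↥(CC v₀)).map (Subgroup.inclusion h.X_le_W)) = 60 := by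
  rw [Subgroup.card_map_of_injective (Subgroup.inclusion_injective h.X_le_W)]
  exact h.card_K

theorem KW_normal : ((commutator ↥(CC v₀)).map (Subgroup.inclusion h.X_le_W)).Normal := by
  constructor
  rintro _ ⟨k, hk, rfl⟩ g
  let α : ↥(CC v₀) →* ↥(CC v₀) := MonoidHom.mk' (fun x => ⟨(g : G) * x * (g : G)⁻¹, memC.2 (h.pres g.2 (cX x))⟩) (by
    intro a b
    apply Subtype.ext
    change (g : G) * ((a : G) * b) * (g : G)⁻¹ = ((g : G) * a * (g : G)⁻¹) * ((g : G) * b * (g : G)⁻¹)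
    group)
  have hα : (commutator ↥(CC v₀)).map α ≤ commutator ↥(CC v₀) := by
    rw [commutator_def, Subgroup.map_commutator]
    exact Subgroup.commutator_mono le_top le_top
  refine ⟨α k, hα ⟨k, hk, rfl⟩, ?_⟩
  apply Subtype.ext
  rfl

theorem inf_LK : (psiF h).ker ⊓ (commutator ↥(CC v₀)).map (Subgroup.inclusion h.X_le_W) = ⊥ := by
  rw [eq_bot_iff]
  rintro x ⟨hx1, ⟨k, hk, rfl⟩⟩
  have hk' : k ∈ (psiX h).ker := hx1
  rw [h.ker_psiX] at hk'
  have h2 : k ∈ commutator ↥(CC v₀) ⊓ Geom.TT (RR z v₀) := Subgroup.mem_inf.2 ⟨hk, hk'⟩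
  rw [h.inf_K, mem_bot] at h2
  rw [mem_bot, h2, map_one]

theorem comm_LK {l k : ↥(WW z v₀)} (hl : l ∈ (psiF h).ker) (hk : k ∈ (commutator ↥(CC v₀)).map (Subgroup.inclusion h.X_le_W)) :
    Commute l k := by
  have hKn := h.KW_normal
  have h1 : l * k * l⁻¹ * k⁻¹ ∈ (psiF h).ker := by
    have e : l * k * l⁻¹ * k⁻¹ = l * (k * l⁻¹ * k⁻¹) := by group
    rw [e]
    exact mul_mem hl (Subgroup.Normal.conj_mem inferInstance _ (inv_mem hl) k)
  have h2 : l * k * l⁻¹ * k⁻¹ ∈ (commutator ↥(CC v₀)).map (Subgroup.inclusion h.X_le_W) :=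
    mul_mem (hKn.conj_mem k hk l) (inv_mem hk)
  have h3 : l * k * l⁻¹ * k⁻¹ ∈ (psiF h).ker ⊓ (commutator ↥(CC v₀)).map (Subgroup.inclusion h.X_le_W) :=
    Subgroup.mem_inf.2 ⟨h1, h2⟩
  rw [h.inf_LK, mem_bot] at h3
  have h4 := mul_inv_eq_one.1 h3
  exact mul_inv_eq_iff_eq_mul.1 h4

theorem sup_LK : (psiF h).ker ⊔ (commutator ↥(CC v₀)).map (Subgroup.inclusion h.X_le_W) = ⊤ := by
  have hn : ∀ b ∈ (commutator ↥(CC v₀)).map (Subgroup.inclusion h.X_le_W), ∀ a ∈ (psiF h).ker, b * a * b⁻¹ ∈ (psiF h).ker := by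
    intro b _ a ha
    exact Subgroup.Normal.conj_mem inferInstance _ ha b
  have h1 := card_sup_of_inf hn h.inf_LK
  rw [h.card_L, h.card_KW] at h1
  apply Subgroup.eq_top_of_card_eq
  rw [h1, h.card_W]

/-- `L` is `A₄`. -/
theorem L_equiv : Nonempty (↥(psiF h).ker ≃* alternatingGroup (Fin 4)) := by
  -- the group `T` inside `L`
  set T₁ : Subgroup ↥(psiF h).ker := ((TG z v₀).subgroupOf (WW z v₀)).subgroupOf (psiF h).ker with hT₁
  have hle : (TG z v₀).subgroupOf (WW z v₀) ≤ (psiF h).ker := by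
    intro t ht
    rw [Subgroup.mem_subgroupOf] at ht
    obtain ⟨x, hx, hxt⟩ := ht
    have hx' : x ∈ (psiX h).ker := by rw [h.ker_psiX]; exact hx
    have e : Subgroup.inclusion h.X_le_W x = t := Subtype.ext hxt
    rw [MonoidHom.mem_ker, ← e]
    exact hx'
  have hle2 : TG z v₀ ≤ WW z v₀ := by
    intro t ht
    exact h.X_le_W (memC.2 (mem_TG.1 ht).1)
  have hcard : Nat.card T₁ = 4 := by
    rw [hT₁, Nat.card_congr (Subgroup.subgroupOfEquivOfLe hle).toEquiv,
      Nat.card_congr (Subgroup.subgroupOfEquivOfLe hle2).toEquiv, h.card_TG]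
  have hmem : ∀ t : ↥(psiF h).ker, t ∈ T₁ ↔ ((t : ↥(WW z v₀)) : G) ∈ TG z v₀ := by
    intro t
    rw [hT₁, Subgroup.mem_subgroupOf, Subgroup.mem_subgroupOf]
  haveI hN : T₁.Normal := by
    constructor
    intro n hn g
    rw [hmem] at hn ⊢
    exact (mem_normalizer_iff.1 (g : ↥(WW z v₀)).2 _).1 hn
  refine a4_of h.card_L T₁ hcard ?_ ?_
  · intro a ha b hb
    rw [hmem] at ha hb
    apply Subtype.ext
    apply Subtype.ext
    exact (h.TG_central hb (mem_TG.1 ha).1).eq
  · -- an element of `L` moving `v₀`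
    have hex : ∃ y ∈ TG z v₀, y ≠ 1 ∧ y ≠ v₀ := by
      by_contra hn
      push Not at hn
      have h3 := h.card_T_ne
      have h4 : Nat.card {y : G // y ∈ TG z v₀ ∧ y ≠ 1} ≤ 1 := by
        haveI : Subsingleton {y : G // y ∈ TG z v₀ ∧ y ≠ 1} := by
          constructor
          rintro ⟨a, ha, ha1⟩ ⟨b, hb, hb1⟩
          apply Subtype.ext
          change a = b
          rw [hn a ha ha1, hn b hb hb1]
        rw [Nat.card_of_subsingleton (⟨v₀, h.v₀_TG, h.v₀_ne⟩ : {y : G // y ∈ TG z v₀ ∧ y ≠ 1})]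
      omega
    obtain ⟨y, hy, hy1, hyv⟩ := hex
    obtain ⟨g, hg⟩ := isConj_iff.1 (h.TG_class hy hy1)
    have hgW := h.mem_W_of hy hy1 hg
    have hgtop : (⟨g, hgW⟩ : ↥(WW z v₀)) ∈ (psiF h).ker ⊔ (commutator ↥(CC v₀)).map (Subgroup.inclusion h.X_le_W) := by
      rw [h.sup_LK]; trivial
    obtain ⟨l, hl, k, hk, hlk⟩ := Cfsg.Agent.Lib.HJOrder.Local.exists_mul_of_sup (fun b _ a ha => Subgroup.Normal.conj_mem inferInstance a ha b) hgtop
    obtain ⟨k', _, rfl⟩ := hk
    have hvker : (⟨v₀, hle2 h.v₀_TG⟩ : ↥(WW z v₀)) ∈ (psiF h).ker := hle (by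
      rw [Subgroup.mem_subgroupOf]; exact h.v₀_TG)
    refine ⟨⟨l, hl⟩, ⟨⟨v₀, hle2 h.v₀_TG⟩, hvker⟩, (hmem _).2 h.v₀_TG, ?_⟩
    intro hc
    have hc1 : (l : G) * v₀ = v₀ * (l : G) := by
      have := congrArg (fun x : ↥(psiF h).ker => ((x : ↥(WW z v₀)) : G)) hc.eq
      exact this
    have hk2 : ((k' : ↥(CC v₀)) : G) * v₀ * ((k' : ↥(CC v₀)) : G)⁻¹ = v₀ := by
      have := cX k'
      rw [this.eq]; group
    have hlk' : (l : G) * ((k' : ↥(CC v₀)) : G) = g := (congrArg Subtype.val hlk).symm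
    apply hyv
    rw [← hg, ← hlk', mul_inv_rev]
    calc (l : G) * ((k' : ↥(CC v₀)) : G) * v₀ * (((k' : ↥(CC v₀)) : G)⁻¹ * (l : G)⁻¹)
        = (l : G) * (((k' : ↥(CC v₀)) : G) * v₀ * ((k' : ↥(CC v₀)) : G)⁻¹) * (l : G)⁻¹ := by group
      _ = (l : G) * v₀ * (l : G)⁻¹ := by rw [hk2]
      _ = v₀ := by rw [hc1]; group

/-- The normalizer of `T` is `A₄ × A₅`. -/
theorem W_equiv : Nonempty (↥(WW z v₀) ≃* alternatingGroup (Fin 4) × alternatingGroup (Fin 5)) := by
  obtain ⟨e₁⟩ := mulEquiv_prod (psiF h).ker ((commutator ↥(CC v₀)).map (Subgroup.inclusion h.X_le_W))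
    (fun a ha b hb => h.comm_LK ha hb) h.inf_LK h.sup_LK
  obtain ⟨e₂⟩ := h.L_equiv
  obtain ⟨e₃⟩ := h.K_equiv
  have hinj : Function.Injective (Subgroup.inclusion h.X_le_W) := Subgroup.inclusion_injective _
  let e₄ := (commutator ↥(CC v₀)).equivMapOfInjective _ hinj
  exact ⟨e₁.symm.trans (MulEquiv.prodCongr e₂ (e₄.symm.trans e₃))⟩

/-- Conjugation transports centralizers. -/
def conjCC (g v : G) : ↥(CC v) ≃* ↥(CC (g * v * g⁻¹)) where
  toFun x := ⟨g * x * g⁻¹, memC.2 (by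
    have hx := cX x
    rw [Commute, SemiconjBy] at *
    calc g * (x : G) * g⁻¹ * (g * v * g⁻¹) = g * ((x : G) * v) * g⁻¹ := by group
      _ = g * (v * (x : G)) * g⁻¹ := by rw [hx]
      _ = _ := by group)⟩
  invFun y := ⟨g⁻¹ * y * g, memC.2 (by
    have hy := cX y
    rw [Commute, SemiconjBy] at *
    have : (y : G) * (g * v * g⁻¹) = (g * v * g⁻¹) * (y : G) := hy
    calc g⁻¹ * (y : G) * g * v = g⁻¹ * ((y : G) * (g * v * g⁻¹)) * g := by group
      _ = g⁻¹ * ((g * v * g⁻¹) * (y : G)) * g := by rw [this]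
      _ = _ := by group)⟩
  left_inv x := by apply Subtype.ext; simp [mul_assoc]
  right_inv y := by apply Subtype.ext; simp [mul_assoc]
  map_mul' a b := by
    apply Subtype.ext
    change g * ((a : G) * b) * g⁻¹ = (g * a * g⁻¹) * (g * b * g⁻¹)
    group

/-- Transport of normalizers by conjugation. -/
def conjNN {A B : Subgroup G} (g : G) (hAB : ∀ y, y ∈ A ↔ g * y * g⁻¹ ∈ B) :
    ↥(normalizer (A : Set G)) ≃* ↥(normalizer (B : Set G)) where
  toFun x := ⟨g * x * g⁻¹, by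
    rw [mem_normalizer_iff]
    intro y
    have hx := mem_normalizer_iff.1 x.2 (g⁻¹ * y * g)
    have e1 : g * (g⁻¹ * y * g) * g⁻¹ = y := by group
    have e2 : g * ((x : G) * (g⁻¹ * y * g) * (x : G)⁻¹) * g⁻¹ = g * (x : G) * g⁻¹ * y * (g * (x : G) * g⁻¹)⁻¹ := by group
    rw [hAB, e1, hAB, e2] at hx
    exact hx⟩
  invFun y := ⟨g⁻¹ * y * g, by
    rw [mem_normalizer_iff]
    intro a
    have hy := mem_normalizer_iff.1 y.2 (g * a * g⁻¹)
    have e2 : g * (g⁻¹ * (y : G) * g * a * (g⁻¹ * (y : G) * g)⁻¹) * g⁻¹ = (y : G) * (g * a * g⁻¹) * (y : G)⁻¹ := by group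
    rw [hAB, hAB, e2]
    exact hy⟩
  left_inv x := by apply Subtype.ext; simp [mul_assoc]
  right_inv y := by apply Subtype.ext; simp [mul_assoc]
  map_mul' a b := by
    apply Subtype.ext
    change g * ((a : G) * b) * g⁻¹ = (g * a * g⁻¹) * (g * b * g⁻¹)
    group

/-- The structure of the centralizer and of the "`2`-local" above it for every involution outside
the class of `z`. -/
theorem main_t {t : G} (ht : orderOf t = 2) (htz : ¬ IsConj t z) :
    Nonempty (↥(centralizer ({t} : Set G)) ≃* (Multiplicative (ZMod 2) × Multiplicative (ZMod 2)) × alternatingGroup (Fin 5)) ∧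
    Nonempty (↥(normalizer (((Cfsg.pCore 2 ↥(centralizer ({t} : Set G))).map (Subgroup.subtype (centralizer ({t} : Set G))) : Subgroup G) : Set G)) ≃* alternatingGroup (Fin 4) × alternatingGroup (Fin 5)) := by
  have ht2 : t ^ 2 = 1 := by rw [← ht]; exact pow_orderOf_eq_one t
  have ht1 : t ≠ 1 := by rintro rfl; rw [orderOf_one] at ht; omega
  rcases h.all_two ht2 ht1 with hc | hc
  · exact absurd hc.symm htz
  obtain ⟨g, rfl⟩ := isConj_iff.1 hc
  have e := conjCC g v₀
  obtain ⟨e₁⟩ := h.main1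
  obtain ⟨e₂⟩ := h.W_equiv
  refine ⟨⟨(conjCC g v₀).symm.trans e₁⟩, ?_⟩
  -- the core
  have hcore : ∀ y : G, y ∈ (Cfsg.pCore 2 ↥(centralizer ({g * v₀ * g⁻¹} : Set G))).map (Subgroup.subtype (centralizer ({g * v₀ * g⁻¹} : Set G)))
      ↔ g⁻¹ * y * g ∈ TG z v₀ := by
    intro y
    have h1 := Cfsg.Agent.Lib.Core.Basic.map_pCore_equiv (p := 2) (conjCC g v₀)
    rw [← h1]
    have h2 := h.pCore_X
    change y ∈ Subgroup.map (CC (g * v₀ * g⁻¹)).subtype ((Cfsg.pCore 2 ↥(CC v₀)).map (conjCC g v₀).toMonoidHom) ↔ _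
    rw [h2]
    constructor
    · rintro ⟨_, ⟨a, ha, rfl⟩, rfl⟩
      refine ⟨a, ha, ?_⟩
      change (a : G) = g⁻¹ * (g * (a : G) * g⁻¹) * g
      group
    · rintro ⟨a, ha, hae⟩
      refine ⟨_, ⟨a, ha, rfl⟩, ?_⟩
      have hae' : (a : G) = g⁻¹ * y * g := hae
      change g * (a : G) * g⁻¹ = y
      rw [hae']
      group
  exact ⟨(conjNN g⁻¹ (by
    intro y
    rw [hcore]
    simp only [inv_inv])).trans e₂⟩

end HT

end Cfsg.Agent.Lib.HJT.Str
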