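import Cfsg.Agent.Lib.HJT.Frame

/-!
# Two classes of involutions and the local structure at a pair
-/

set_option autoImplicit false
set_option linter.unusedSectionVars false
set_option linter.unusedVariables false
set_option linter.style.longLine false

namespace Cfsg.Agent.Lib.HJT.Str

open Subgroup Cfsg.Agent.Lib.PGroups.ExtraGauss Cfsg.Agent.Lib.HJOrder.Basic
  Cfsg.Agent.Lib.HJOrder.Tau Cfsg.Agent.Lib.HJOrder.A5 Cfsg.Agent.Lib.HJOrder.Local
  Cfsg.Agent.Lib.Involutions.Thompson Cfsg.Agent.Lib.HJT.A5x Cfsg.Agent.Lib.HJT.Geo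
  Cfsg.Agent.Lib.HJT.Frame
open scoped commutatorElement

variable {G : Type*} [Group G] [Finite G]

theorem conj_sq {a b : G} (h : IsConj a b) (ha : a ^ 2 = 1) : b ^ 2 = 1 := by
  obtain ⟨c, rfl⟩ := isConj_iff.1 h
  rw [conj_pow, ha]; simp

theorem conj_ne {a b : G} (h : IsConj a b) (ha : a ≠ 1) : b ≠ 1 := by
  obtain ⟨c, rfl⟩ := isConj_iff.1 h
  intro e
  apply ha
  have : a = c⁻¹ * (c * a * c⁻¹) * c := by group
  rw [this, e]; group

theorem isConj_of (c a : G) : IsConj a (c * a * c⁻¹) := isConj_iff.2 ⟨c, rfl⟩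

/-- General orbit counting. -/
theorem card_orbit {H S : Type*} [Group H] [Finite H] (K₀ : Subgroup H) (φ : H → S)
    (hφ : ∀ x y, φ x = φ y ↔ x⁻¹ * y ∈ K₀) : Nat.card H = Nat.card (Set.range φ) * Nat.card K₀ := by
  rw [Subgroup.card_eq_card_quotient_mul_card_subgroup K₀]
  congr 1
  apply Nat.card_congr
  refine Equiv.ofBijective (fun q => ⟨Quotient.liftOn' q φ (fun a b hab => (hφ a b).2 (QuotientGroup.leftRel_apply.1 hab)), ?_⟩) ⟨?_, ?_⟩
  · induction q using QuotientGroup.induction_on with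
    | H a => exact ⟨a, rfl⟩
  · intro p q
    induction p using QuotientGroup.induction_on with
    | H a =>
      induction q using QuotientGroup.induction_on with
      | H b =>
        intro e
        have e1 : φ a = φ b := congrArg Subtype.val e
        exact QuotientGroup.eq.2 ((hφ a b).1 e1)
  · rintro ⟨_, ⟨a, rfl⟩⟩
    exact ⟨(a : H ⧸ K₀), rfl⟩

/-- The framework with two classes of involutions. -/
structure HT (z v₀ : G) (Q : Subgroup G) (π : ↥(CC z) →* AFive) : Prop where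
  s : HS z Q π
  hD : ∀ x ∈ Q, x ^ 2 = 1 → x ≠ 1 → IsConj z x
  vz : v₀ * z = z * v₀
  v2 : v₀ ^ 2 = 1
  vQ : v₀ ∉ Q
  nc : ¬ IsConj z v₀

theorem exists_HT {z : G} {Q : Subgroup G} {π : ↥(CC z) →* AFive} (hs : HS z Q π)
    (hne : ∃ g : G, g * z * g⁻¹ ∈ Q ∧ g * z * g⁻¹ ≠ z)
    (hcl : ∃ x y : G, orderOf x = 2 ∧ orderOf y = 2 ∧ ¬ IsConj x y) : ∃ v₀, HT z v₀ Q π := by
  have hD := hs.all_conj hne
  obtain ⟨x, y, hx, hy, hxy⟩ := hcl
  have hx2 : x ^ 2 = 1 := by rw [← hx]; exact pow_orderOf_eq_one x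
  have hy2 : y ^ 2 = 1 := by rw [← hy]; exact pow_orderOf_eq_one y
  have hx1 : x ≠ 1 := by rintro rfl; simp at hx
  have hy1 : y ≠ 1 := by rintro rfl; simp at hy
  obtain ⟨g₁, hg₁⟩ := hs.conj_into_C hx2
  obtain ⟨g₂, hg₂⟩ := hs.conj_into_C hy2
  have key : ∀ t : G, t ^ 2 = 1 → t ≠ 1 → t * z = z * t → ¬ IsConj z t → ∃ v₀, HT z v₀ Q π := by
    intro t ht ht1 htz hn
    exact ⟨t, hs, hD, htz, ht, fun hm => hn (hD t hm ht ht1), hn⟩
  by_cases h1 : IsConj z (g₁ * x * g₁⁻¹)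
  · by_cases h2 : IsConj z (g₂ * y * g₂⁻¹)
    · exact absurd (((isConj_of g₁ x).trans h1.symm).trans (h2.trans (isConj_of g₂ y).symm)) hxy
    · exact key _ (conj_sq (isConj_of g₂ y) hy2) (conj_ne (isConj_of g₂ y) hy1) hg₂ h2
  · exact key _ (conj_sq (isConj_of g₁ x) hx2) (conj_ne (isConj_of g₁ x) hx1) hg₁ h1

namespace HT

variable {z v₀ : G} {Q : Subgroup G} {π : ↥(CC z) →* AFive} (h : HT z v₀ Q π)
include h

theorem z2 : z ^ 2 = 1 := h.s.q.z_sq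

theorem z1 : z ≠ 1 := h.s.q.z_ne

theorem conj_v {w : G} (hwz : w * z = z * w) (hw2 : w ^ 2 = 1) (hwQ : w ∉ Q) : ∃ c : G, c * z = z * c ∧ c * v₀ * c⁻¹ = w := by
  obtain ⟨c, hc⟩ := h.s.conj_I (v := ⟨v₀, memC.2 h.vz⟩) (w := ⟨w, memC.2 hwz⟩) (Subtype.ext h.v2) (Subtype.ext hw2) h.vQ hwQ
  exact ⟨c, h.s.cz c, congrArg Subtype.val hc⟩

theorem notD {w : G} (hwz : w * z = z * w) (hw2 : w ^ 2 = 1) (hwQ : w ∉ Q) : ¬ IsConj z w := by
  obtain ⟨c, -, rfl⟩ := h.conj_v hwz hw2 hwQ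
  intro e
  exact h.nc (e.trans (isConj_of c v₀).symm)

theorem D_Q {x : G} (hxz : x * z = z * x) (hx : IsConj z x) : x ∈ Q := by
  by_contra hn
  exact h.notD hxz (conj_sq hx h.z2) hn hx

theorem D'_I {y : G} (hy : IsConj v₀ y) : y ^ 2 = 1 ∧ y ∉ Q := by
  have hy2 := conj_sq hy h.v2
  refine ⟨hy2, fun hm => ?_⟩
  have hv1 : v₀ ≠ 1 := by
    rintro rfl
    exact h.vQ (one_mem _)
  exact h.nc ((h.hD y hm hy2 (conj_ne hy hv1)).trans hy.symm)

theorem all_two {t : G} (ht : t ^ 2 = 1) (ht1 : t ≠ 1) : IsConj z t ∨ IsConj v₀ t := by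
  obtain ⟨g, hg⟩ := h.s.conj_into_C ht
  by_cases hm : g * t * g⁻¹ ∈ Q
  · left
    exact (h.hD _ hm (conj_sq (isConj_of g t) ht) (conj_ne (isConj_of g t) ht1)).trans (isConj_of g t).symm
  · right
    obtain ⟨c, -, hc⟩ := h.conj_v hg (conj_sq (isConj_of g t) ht) hm
    have : IsConj v₀ (g * t * g⁻¹) := by
      rw [← hc]
      exact isConj_of c v₀
    exact this.trans (isConj_of g t).symm

/-- A noncentral involution of `Q`. -/
theorem exists_P : ∃ s : G, s ^ 2 = 1 ∧ s ≠ 1 ∧ s ≠ z ∧ s ∈ Q := by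
  have hvz := h.vz
  have hcard := h.s.VV_card hvz h.v2 h.vQ
  classical
  by_contra hn
  push Not at hn
  have h1 : Nat.card (VV Q v₀) ≤ ({1, z} : Finset G).card := by
    apply card_le_of_mem
    intro x hx
    simp only [Finset.mem_insert, Finset.mem_singleton]
    have hxQ := (mem_VV.1 hx).1
    have hx2 := h.s.fix_sq hvz h.v2 h.vQ hxQ (mem_VV.1 hx).2.symm
    by_cases e : x = 1
    · exact Or.inl e
    · right
      by_contra e'
      exact hn x hx2 e e' hxQ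
  have h2 : ({1, z} : Finset G).card ≤ 2 := Finset.card_le_two
  omega

/-- The size of the centralizer in `C` of `v`. -/
theorem card_E {v : G} (hvz : v * z = z * v) (hv2 : v ^ 2 = 1) (hvQ : v ∉ Q) :
    Nat.card {g : G // g * z = z * g ∧ g * v = v * g} = 16 := by
  set cv : ↥(CC z) := ⟨v, memC.2 hvz⟩ with hcv
  have hcv2 : cv ^ 2 = 1 := Subtype.ext hv2
  let I := {w : G // w * z = z * w ∧ w ^ 2 = 1 ∧ w ∉ Q}
  have hI : Nat.card I = 120 := h.s.card_I hcv2 hvQ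
  have hmem : ∀ c : ↥(CC z), (c * cv * c⁻¹ : ↥(CC z)).1 ∉ Q := by
    intro c hm
    have e2 := (h.s.ker _).2 hm
    rw [map_mul, map_mul, map_inv] at e2
    apply h.s.pi_ne_one (v := cv) hvQ
    have : π cv = (π c)⁻¹ * (π c * π cv * (π c)⁻¹) * π c := by group
    rw [this, e2]; group
  let φ : ↥(CC z) → I := fun c => ⟨(c * cv * c⁻¹ : ↥(CC z)).1, h.s.cz _, by
    have e : (c * cv * c⁻¹) ^ 2 = 1 := by rw [conj_pow, hcv2]; simp
    exact congrArg Subtype.val e, hmem c⟩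
  have hr : Set.range φ = Set.univ := by
    rw [Set.eq_univ_iff_forall]
    rintro ⟨w, hwz, hw2, hwQ⟩
    obtain ⟨c, hc⟩ := h.s.conj_I (v := cv) (w := ⟨w, memC.2 hwz⟩) hcv2 (Subtype.ext hw2) hvQ hwQ
    have e : ((c * cv * c⁻¹ : ↥(CC z)) : G) = w := congrArg Subtype.val hc
    exact ⟨c, Subtype.ext e⟩
  have h1 := card_orbit (centralizer ({cv} : Set ↥(CC z))) φ (by
    intro x y
    rw [Subgroup.mem_centralizer_singleton_iff]
    constructor
    · intro e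
      have e' : ((x * cv * x⁻¹ : ↥(CC z)) : G) = ((y * cv * y⁻¹ : ↥(CC z)) : G) := congrArg (fun w : I => w.1) e
      have e1 : x * cv * x⁻¹ = y * cv * y⁻¹ := Subtype.ext e'
      calc x⁻¹ * y * cv = x⁻¹ * (y * cv * y⁻¹) * y := by group
        _ = x⁻¹ * (x * cv * x⁻¹) * y := by rw [e1]
        _ = cv * (x⁻¹ * y) := by group
    · intro e
      have e2 : x * cv * x⁻¹ = y * cv * y⁻¹ := by
        calc x * cv * x⁻¹ = x * (cv * (x⁻¹ * y)) * y⁻¹ := by group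
          _ = x * (x⁻¹ * y * cv) * y⁻¹ := by rw [e]
          _ = y * cv * y⁻¹ := by group
      have e3 : ((x * cv * x⁻¹ : ↥(CC z)) : G) = ((y * cv * y⁻¹ : ↥(CC z)) : G) := congrArg Subtype.val e2
      exact Subtype.ext e3)
  rw [hr, h.s.card_C, Nat.card_congr (Equiv.Set.univ I), hI] at h1
  have h2 : Nat.card {g : G // g * z = z * g ∧ g * v = v * g} = Nat.card (centralizer ({cv} : Set ↥(CC z))) := by
    apply Nat.card_congr
    refine
      { toFun := fun g => ⟨⟨g.1, memC.2 g.2.1⟩, ?_⟩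
        invFun := fun g => ⟨g.1.1, memC.1 g.1.2, ?_⟩
        left_inv := fun _ => rfl
        right_inv := fun _ => rfl }
    · rw [Subgroup.mem_centralizer_singleton_iff]
      exact Subtype.ext g.2.2
    · have := (Subgroup.mem_centralizer_singleton_iff.1 g.2)
      exact congrArg Subtype.val this
  rw [h2]
  omega

/-! ### The count of `PairsOver z v₀ z`; adapted from the complement case -/

theorem card_T {v : G} (hvz : v * z = z * v) (hv2 : v ^ 2 = 1) (hvQ : v ∉ Q) :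
    Nat.card {u : G // u ∈ Q ∧ u ^ 2 = 1 ∧ v * u * v⁻¹ ≠ u ∧ v * u * v⁻¹ ≠ u * z} = 8 := by
  have hv := h.s.n v hvz
  rw [← card_out_F h.s.q.setting h.s.q.center_card h.s.q.card (tauG Q v hv) (tauG_invol hv hv2) (tauG_z h.s.q hv hvz)
    h.s.nn (h.s.index_v hvz hv2 hvQ)]
  apply Nat.card_congr
  refine ⟨fun u => ⟨⟨u.1, u.2.1⟩, Subtype.ext u.2.2.1, ?_⟩, fun u => ⟨u.1.1, u.1.2, congrArg Subtype.val u.2.1, ?_, ?_⟩,
    fun _ => rfl, fun _ => rfl⟩
  · rw [mem_FF_tau h.s.q hv hvz]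
    rintro (e | e)
    · exact u.2.2.2.1 e
    · exact u.2.2.2.2 e
  · intro e
    exact u.2.2 ((mem_FF_tau h.s.q hv hvz _).2 (Or.inl e))
  · intro e
    exact u.2.2 ((mem_FF_tau h.s.q hv hvz _).2 (Or.inr e))

theorem pair_forward {u v : G}
    (hvz : v * z = z * v) (hv2 : v ^ 2 = 1) (hvQ : v ∉ Q)
    (hu : u ∈ Q) (hu2 : u ^ 2 = 1) (hu1 : v * u * v⁻¹ ≠ u) (hu3 : v * u * v⁻¹ ≠ u * z) :
    IsConj z u ∧ IsConj v₀ v ∧ z ∈ zpowers (u * v) := by
  have hune : u ≠ 1 := by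
    rintro rfl
    exact hu1 (by group)
  have hv := h.s.n v hvz
  obtain ⟨c, -, rfl⟩ := h.conj_v hvz hv2 hvQ
  refine ⟨h.hD u hu hu2 hune, isConj_of c v₀, ?_⟩
  set v := c * v₀ * c⁻¹ with hvdef
  have huF : (⟨u, hu⟩ : ↥Q) ∉ FF h.s.q.setting (tauG Q v hv) (tauG_z h.s.q hv hvz) := by
    rw [mem_FF_tau h.s.q hv hvz]
    rintro (e | e)
    · exact hu1 e
    · exact hu3 e
  have h1 := mul_tau_sq h.s.q.setting h.s.q.center_card h.s.q.card (tauG Q v hv) (tauG_invol hv hv2) (tauG_z h.s.q hv hvz)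
    h.s.nn (h.s.index_v hvz hv2 hvQ) (u := ⟨u, hu⟩) (Subtype.ext hu2) huF
  have h2 : u * (v * u * v⁻¹) * (u * (v * u * v⁻¹)) = z := congrArg Subtype.val h1
  have hvi : v⁻¹ = v := inv_eq_of_mul_eq_one_right (by rw [← sq, hv2])
  rw [hvi] at h2
  refine ⟨(4 : ℤ), ?_⟩
  simp only
  rw [zpow_ofNat, ← h2]
  simp only [pow_succ, pow_zero, one_mul, mul_assoc]

theorem pair_back {u v : G} (hu : IsConj z u) (hv : IsConj v₀ v) (hzm : z ∈ zpowers (u * v)) :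
    v * z = z * v ∧ v ^ 2 = 1 ∧ v ∉ Q ∧ u ∈ Q ∧ u ^ 2 = 1 ∧ v * u * v⁻¹ ≠ u ∧ v * u * v⁻¹ ≠ u * z := by
  have hu2 : u ^ 2 = 1 := conj_sq hu h.z2
  obtain ⟨hv2, hvQ⟩ := h.D'_I hv
  obtain ⟨huz, hvz⟩ := conj_of_mem_zpowers hu2 hv2 hzm h.z2
  have huQ : u ∈ Q := h.D_Q huz hu
  have hvi : v⁻¹ = v := inv_eq_of_mul_eq_one_right (by rw [← sq, hv2])
  have hui : u⁻¹ = u := inv_eq_of_mul_eq_one_right (by rw [← sq, hu2])
  refine ⟨hvz, hv2, hvQ, huQ, hu2, ?_, ?_⟩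
  · intro e
    have hc : u * v = v * u := by
      calc u * v = (v * u * v⁻¹) * v := by rw [e]
        _ = v * u := by group
    have hs : (u * v) ^ 2 = 1 := by
      rw [(show Commute u v from hc).mul_pow, hu2, hv2, one_mul]
    have hcase : z = 1 ∨ z = u * v := by
      by_cases hw : u * v = 1
      · rw [hw] at hzm
        left
        simpa using hzm
      · have h2 : Nat.card (zpowers (u * v)) = 2 := by
          rw [Nat.card_zpowers]
          exact orderOf_eq_prime hs hw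
        exact eq_of_card_two _ h2 hw (mem_zpowers _) hzm
    rcases hcase with e1 | e1
    · exact h.z1 e1
    · apply hvQ
      have : v = u⁻¹ * z := by rw [e1]; group
      rw [this]
      exact Q.mul_mem (Q.inv_mem huQ) h.s.q.z_mem
  · intro e
    have h2 := h.s.inverts hvz hv2 hvQ huQ (Or.inr e)
    rw [e, hui] at h2
    apply h.z1
    exact (mul_left_cancel (a := u) (by rw [h2, mul_one]))

/-- The first count in the Thompson formula. -/
theorem card_pairs_z : Nat.card (PairsOver z v₀ z) = 960 := by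
  have h1 := card_sigma_const (fun v : {v : G // v * z = z * v ∧ v ^ 2 = 1 ∧ v ∉ Q} =>
    {u : G // u ∈ Q ∧ u ^ 2 = 1 ∧ v.1 * u * v.1⁻¹ ≠ u ∧ v.1 * u * v.1⁻¹ ≠ u * z}) 8
    (fun v => h.card_T v.2.1 v.2.2.1 v.2.2.2)
  rw [h.s.card_I (v₀ := ⟨v₀, memC.2 h.vz⟩) (Subtype.ext h.v2) h.vQ] at h1
  rw [show 960 = 120 * 8 by norm_num, ← h1]
  symm
  apply Nat.card_congr
  refine Equiv.ofBijective (fun p => ⟨(p.2.1, p.1.1), h.pair_forward p.1.2.1 p.1.2.2.1 p.1.2.2.2 p.2.2.1 p.2.2.2.1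
    p.2.2.2.2.1 p.2.2.2.2.2⟩) ⟨?_, ?_⟩
  · rintro ⟨⟨v, hv⟩, ⟨u, hu⟩⟩ ⟨⟨v', hv'⟩, ⟨u', hu'⟩⟩ e
    have e1 : (u, v) = (u', v') := congrArg Subtype.val e
    obtain ⟨rfl, rfl⟩ := Prod.mk.inj e1
    rfl
  · rintro ⟨⟨u, v⟩, hu, hv, hzm⟩
    obtain ⟨h1, h2, h3, h4, h5, h6, h7⟩ := h.pair_back hu hv hzm
    exact ⟨⟨⟨v, h1, h2, h3⟩, ⟨u, h4, h5, h6, h7⟩⟩, rfl⟩

end HT

end Cfsg.Agent.Lib.HJT.Str
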